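import Mathlib
import Cfsg.Agent.Lib.Helper27.Flag

set_option autoImplicit false

namespace Cfsg.Agent.Lib.Helper30.A7GL

open Cfsg.Agent.Lib.Helper27

variable {F : Type*} [Field F] [Fintype F]

/-- the action of `GL 4 F` on pairs of vectors. -/
@[reducible] def pairAction : MulAction (GL (Fin 4) F) ((Fin 4 → F) × (Fin 4 → F)) where
  smul g x := ((g : Matrix (Fin 4) (Fin 4) F).mulVec x.1, (g : Matrix (Fin 4) (Fin 4) F).mulVec x.2)
  one_smul x := by
    change (((1 : GL (Fin 4) F) : Matrix (Fin 4) (Fin 4) F).mulVec x.1,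
      ((1 : GL (Fin 4) F) : Matrix (Fin 4) (Fin 4) F).mulVec x.2) = x
    simp
  mul_smul g h x := by
    change (((g * h : GL (Fin 4) F) : Matrix (Fin 4) (Fin 4) F).mulVec x.1,
      ((g * h : GL (Fin 4) F) : Matrix (Fin 4) (Fin 4) F).mulVec x.2) =
      ((g : Matrix (Fin 4) (Fin 4) F).mulVec ((h : Matrix (Fin 4) (Fin 4) F).mulVec x.1),
       (g : Matrix (Fin 4) (Fin 4) F).mulVec ((h : Matrix (Fin 4) (Fin 4) F).mulVec x.2))
    simp [Matrix.mulVec_mulVec]

theorem eq_zero_or_one (hF : Fintype.card F = 2) (a : F) : a = 0 ∨ a = 1 := by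
  classical
  by_contra h
  push Not at h
  have h3 : ({0, 1, a} : Finset F).card = 3 := by
    rw [Finset.card_insert_of_notMem, Finset.card_insert_of_notMem, Finset.card_singleton]
    · simpa using h.2.symm
    · simp only [Finset.mem_insert, Finset.mem_singleton, not_or]
      exact ⟨zero_ne_one, h.1.symm⟩
  have := Finset.card_le_univ ({0, 1, a} : Finset F)
  omega

theorem two_eq_zero' (hF : Fintype.card F = 2) : (1 + 1 : F) = 0 := by
  rcases eq_zero_or_one hF (1 + 1 : F) with h | h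
  · exact h
  · exfalso
    have : (1 : F) = 0 := by
      have h2 : (1 : F) + 1 = 1 + 0 := by rw [h, add_zero]
      exact add_left_cancel h2
    exact one_ne_zero this

theorem linInd (hF : Fintype.card F = 2) {v w : Fin 4 → F} (hv : v ≠ 0) (hw : w ≠ 0) (hvw : v ≠ w) :
    LinearIndependent F ![v, w] := by
  rw [LinearIndependent.pair_iff]
  intro s t hst
  rcases eq_zero_or_one hF s with rfl | rfl <;> rcases eq_zero_or_one hF t with rfl | rfl
  · exact ⟨rfl, rfl⟩
  · exfalso; apply hw; simpa using hst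
  · exfalso; apply hv; simpa using hst
  · exfalso
    apply hvw
    have h1 : v + w = 0 := by simpa using hst
    have h2 : w + w = 0 := by
      have : (1 + 1 : F) • w = 0 := by rw [two_eq_zero' hF, zero_smul]
      simpa [add_smul] using this
    calc v = v + (w + w) := by rw [h2, add_zero]
      _ = (v + w) + w := by rw [add_assoc]
      _ = w := by rw [h1, zero_add]

theorem exists_gl (hF : Fintype.card F = 2) {v w v' w' : Fin 4 → F} (hv : v ≠ 0) (hw : w ≠ 0)
    (hvw : v ≠ w) (hv' : v' ≠ 0) (hw' : w' ≠ 0) (hvw' : v' ≠ w') :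
    ∃ g : GL (Fin 4) F, (g : Matrix (Fin 4) (Fin 4) F).mulVec v = v' ∧
      (g : Matrix (Fin 4) (Fin 4) F).mulVec w = w' := by
  have hD := linInd hF hv hw hvw
  have hE := linInd hF hv' hw' hvw'
  have q0 : hD.linearCombinationEquiv (Finsupp.single 0 1) = v := by simp
  have q1 : hD.linearCombinationEquiv (Finsupp.single 1 1) = w := by simp
  have r0 : hE.linearCombinationEquiv (Finsupp.single 0 1) = v' := by simp
  have r1 : hE.linearCombinationEquiv (Finsupp.single 1 1) = w' := by simp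
  let f := hD.linearCombinationEquiv.symm ≪≫ₗ hE.linearCombinationEquiv
  obtain ⟨g, hg⟩ := Submodule.exists_linearEquiv_restrict_eq f
  have gv : g v = v' := by
    have h := hg (hD.linearCombinationEquiv (Finsupp.single 0 1))
    rw [q0] at h
    rw [← h]
    simp only [f, LinearEquiv.trans_apply, LinearEquiv.symm_apply_apply]
    exact r0
  have gw : g w = w' := by
    have h := hg (hD.linearCombinationEquiv (Finsupp.single 1 1))
    rw [q1] at h
    rw [← h]
    simp only [f, LinearEquiv.trans_apply, LinearEquiv.symm_apply_apply]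
    exact r1
  have h1 : ∀ x, ((Matrix.GeneralLinearGroup.toLin.symm
      (LinearMap.GeneralLinearGroup.ofLinearEquiv g) : GL (Fin 4) F) :
      Matrix (Fin 4) (Fin 4) F).mulVec x = g x := by
    intro x
    have h2 := Matrix.GeneralLinearGroup.coe_toLin (Matrix.GeneralLinearGroup.toLin.symm
      (LinearMap.GeneralLinearGroup.ofLinearEquiv g) : GL (Fin 4) F)
    rw [MulEquiv.apply_symm_apply] at h2
    have h3 := congrArg (fun L : (Fin 4 → F) →ₗ[F] (Fin 4 → F) => L x) h2
    simp only [Matrix.mulVecLin_apply] at h3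
    rw [← h3]
    rfl
  exact ⟨Matrix.GeneralLinearGroup.toLin.symm (LinearMap.GeneralLinearGroup.ofLinearEquiv g),
    by rw [h1, gv], by rw [h1, gw]⟩

theorem card_GL4 (hF : Fintype.card F = 2) : Nat.card (GL (Fin 4) F) = 20160 := by
  rw [Matrix.card_GL_field, hF]
  simp [Fin.prod_univ_succ]

omit [Fintype F] in
theorem mulVec_inj (g : GL (Fin 4) F) {x y : Fin 4 → F}
    (h : (g : Matrix (Fin 4) (Fin 4) F).mulVec x = (g : Matrix (Fin 4) (Fin 4) F).mulVec y) : x = y := by
  have h2 := congrArg ((g⁻¹ : GL (Fin 4) F) : Matrix (Fin 4) (Fin 4) F).mulVec h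
  rw [Matrix.mulVec_mulVec, Matrix.mulVec_mulVec, ← Matrix.GeneralLinearGroup.coe_mul] at h2
  simpa using h2

theorem even_card_of_swap {α : Type*} [DecidableEq α] (S : Finset (α × α))
    (h1 : ∀ x ∈ S, x.swap ∈ S) (h2 : ∀ x ∈ S, x.1 ≠ x.2) : Even S.card := by
  have h := Finset.sum_involution (s := S) (f := fun _ => (1 : ZMod 2)) (fun a _ => a.swap)
    (fun a _ => by decide) (fun a ha _ hc => h2 a ha (by
      have := congrArg Prod.fst hc
      simpa using this.symm)) (fun a ha => h1 a ha) (fun a _ => Prod.swap_swap a)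
  rw [Finset.sum_const, nsmul_eq_mul, mul_one] at h
  exact (ZMod.natCast_eq_zero_iff_even).mp h

theorem two_trans (hF : Fintype.card F = 2) (H : Subgroup (GL (Fin 4) F)) (hH : Nat.card H = 2520)
    {v w v' w' : Fin 4 → F} (hv : v ≠ 0) (hw : w ≠ 0) (hvw : v ≠ w) (hv' : v' ≠ 0) (hw' : w' ≠ 0)
    (hvw' : v' ≠ w') :
    ∃ g ∈ H, (g : Matrix (Fin 4) (Fin 4) F).mulVec v = v' ∧
      (g : Matrix (Fin 4) (Fin 4) F).mulVec w = w' := by
  classical
  let _inst := pairAction (F := F)
  set XX : Finset ((Fin 4 → F) × (Fin 4 → F)) := (Finset.univ.erase 0).offDiag with hXXdef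
  have hXX : XX.card = 210 := by
    rw [hXXdef, Finset.offDiag_card, Finset.card_erase_of_mem (Finset.mem_univ _), Finset.card_univ,
      Fintype.card_pi_const, hF]
    norm_num
  have memXX : ∀ x : (Fin 4 → F) × (Fin 4 → F), x ∈ XX ↔ x.1 ≠ 0 ∧ x.2 ≠ 0 ∧ x.1 ≠ x.2 := by
    intro x
    simp [hXXdef, Finset.mem_offDiag]
  have smul_def : ∀ (g : GL (Fin 4) F) (x : (Fin 4 → F) × (Fin 4 → F)),
      g • x = ((g : Matrix (Fin 4) (Fin 4) F).mulVec x.1, (g : Matrix (Fin 4) (Fin 4) F).mulVec x.2) :=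
    fun _ _ => rfl
  have smul_mem : ∀ (g : GL (Fin 4) F) (x : (Fin 4 → F) × (Fin 4 → F)), x ∈ XX → g • x ∈ XX := by
    intro g x hx
    rw [memXX] at hx ⊢
    rw [smul_def]
    refine ⟨fun h => hx.1 (mulVec_inj g (by simpa using h)),
      fun h => hx.2.1 (mulVec_inj g (by simpa using h)), fun h => hx.2.2 (mulVec_inj g h)⟩
  -- an involution of `H`
  have hfinH : Finite H := Nat.finite_of_card_ne_zero (by rw [hH]; norm_num)
  obtain ⟨t, ht⟩ := exists_prime_orderOf_dvd_card' (G := H) 2 (by rw [hH]; norm_num)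
  have ht1 : (t : GL (Fin 4) F) ≠ 1 := by
    intro h
    have : t = 1 := Subtype.ext h
    rw [this, orderOf_one] at ht
    norm_num at ht
  have ht2 : (t : GL (Fin 4) F) * t = 1 := by
    have := pow_orderOf_eq_one t
    rw [ht, pow_two] at this
    exact congrArg Subtype.val this
  obtain ⟨u, hu⟩ : ∃ u : Fin 4 → F, ((t : GL (Fin 4) F) : Matrix (Fin 4) (Fin 4) F).mulVec u ≠ u := by
    by_contra hcon
    push Not at hcon
    apply ht1
    apply Units.ext
    apply Matrix.ext_of_mulVec_single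
    intro i
    rw [hcon]
    change _ = (1 : Matrix (Fin 4) (Fin 4) F).mulVec _
    rw [Matrix.one_mulVec]
  have hu0 : u ≠ 0 := by
    rintro rfl
    apply hu
    simp
  set x0 : (Fin 4 → F) × (Fin 4 → F) :=
    (u, ((t : GL (Fin 4) F) : Matrix (Fin 4) (Fin 4) F).mulVec u) with hx0
  have hx0X : x0 ∈ XX := by
    rw [memXX]
    refine ⟨hu0, fun h => hu0 (mulVec_inj (t : GL (Fin 4) F) (by simpa using h)), fun h => hu h.symm⟩
  have htx0 : (t : GL (Fin 4) F) • x0 = x0.swap := by
    rw [smul_def, hx0]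
    simp only [Prod.swap_prod_mk, Prod.mk.injEq, true_and]
    rw [Matrix.mulVec_mulVec, ← Matrix.GeneralLinearGroup.coe_mul, ht2]
    simp
  -- the orbit
  set S : Finset ((Fin 4 → F) × (Fin 4 → F)) := XX.filter (fun y => ∃ g ∈ H, g • x0 = y) with hS
  have e1 := card_step (G := GL (Fin 4) F) H x0 (S : Set ((Fin 4 → F) × (Fin 4 → F)))
    (fun y hy => (Finset.mem_filter.mp hy).2)
    (fun g hg => Finset.mem_filter.mpr ⟨smul_mem g x0 hx0X, g, hg, rfl⟩)
  have e2 := card_step_top (G := GL (Fin 4) F) x0 (XX : Set ((Fin 4 → F) × (Fin 4 → F)))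
    (fun y hy => by
      have hy' := (memXX y).mp hy
      have hx' := (memXX x0).mp hx0X
      obtain ⟨g, hg1, hg2⟩ := exists_gl hF hx'.1 hx'.2.1 hx'.2.2 hy'.1 hy'.2.1 hy'.2.2
      exact ⟨g, by rw [smul_def, hg1, hg2]⟩)
    (fun g => smul_mem g x0 hx0X)
  rw [Set.ncard_coe_finset, hH] at e1
  rw [Set.ncard_coe_finset, hXX, card_GL4 hF] at e2
  have e3 : Nat.card ↥(MulAction.stabilizer (GL (Fin 4) F) x0) = 96 := by omega
  have e4 : Nat.card ↥(H ⊓ MulAction.stabilizer (GL (Fin 4) F) x0) ∣ 96 := by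
    rw [← e3]
    exact Subgroup.card_dvd_of_le inf_le_right
  have e5 : Even S.card := by
    apply even_card_of_swap
    · intro x hx
      obtain ⟨hxX, g, hg, rfl⟩ := Finset.mem_filter.mp hx
      have : (g • x0).swap = (g * t) • x0 := by
        rw [mul_smul, htx0]
        rfl
      rw [this]
      exact Finset.mem_filter.mpr ⟨smul_mem _ x0 hx0X, g * t, H.mul_mem hg t.2, rfl⟩
    · intro x hx
      exact ((memXX x).mp (Finset.mem_filter.mp hx).1).2.2
  have e6 : S.card ≤ 210 := by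
    rw [← hXX]
    exact Finset.card_le_card (Finset.filter_subset _ _)
  have e7 : S.card = 210 := by
    set b := Nat.card ↥(H ⊓ MulAction.stabilizer (GL (Fin 4) F) x0) with hb
    have hb24 : b ∣ 24 := by
      have h1 : b ∣ 2520 := ⟨S.card, by rw [e1, Nat.mul_comm]⟩
      exact Nat.dvd_gcd h1 e4
    have hble : b ≤ 24 := Nat.le_of_dvd (by norm_num) hb24
    obtain ⟨k, hk⟩ := e5
    have hbpos : 0 < b := Nat.pos_of_dvd_of_pos hb24 (by norm_num)
    interval_cases b <;> omega
  have e8 : S = XX := Finset.eq_of_subset_of_card_le (Finset.filter_subset _ _) (by rw [e7, hXX])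
  have m1 : (v, w) ∈ S := by rw [e8, memXX]; exact ⟨hv, hw, hvw⟩
  have m2 : (v', w') ∈ S := by rw [e8, memXX]; exact ⟨hv', hw', hvw'⟩
  obtain ⟨-, g1, hg1, hg1'⟩ := Finset.mem_filter.mp m1
  obtain ⟨-, g2, hg2, hg2'⟩ := Finset.mem_filter.mp m2
  refine ⟨g2 * g1⁻¹, H.mul_mem hg2 (H.inv_mem hg1), ?_⟩
  have h3 : (g2 * g1⁻¹) • ((v, w) : (Fin 4 → F) × (Fin 4 → F)) = (v', w') := by
    rw [← hg1', ← hg2', mul_smul, inv_smul_smul]
  rw [smul_def] at h3
  exact ⟨congrArg Prod.fst h3, congrArg Prod.snd h3⟩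

end Cfsg.Agent.Lib.Helper30.A7GL
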