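import Cfsg.Agent.Lib.Helper30.Cocode

set_option autoImplicit false

namespace Cfsg.Agent.Lib.Helper30.Cocode

open Cfsg Cfsg.Agent.Lib.Helper27

/-- the codeword with information part `k`. -/
def cw (k : ℕ) : ↥golayCode := ⟨wordOf (enc k), wordOf_enc_mem k⟩

/-- the information part of a codeword. -/
def info (c : ↥golayCode) : ℕ := mask (support₂ c.1) % 4096

theorem info_lt (c : ↥golayCode) : info c < 4096 := Nat.mod_lt _ (by norm_num)

theorem cw_info (c : ↥golayCode) : cw (info c) = c := by
  apply Subtype.ext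
  change wordOf (enc (mask (support₂ c.1) % 4096)) = c.1
  rw [enc_mod, (isCode_iff _).1 ((mem_golayCode_iff c.1).1 c.2), wordOf_mask_support₂]

theorem info_cw {k : ℕ} (hk : k < 4096) : info (cw k) = k := by
  change mask (support₂ (wordOf (enc k))) % 4096 = k
  rw [support₂_wordOf, mask_unmask (enc_lt k), enc_low k hk]

theorem cw_xor (a b : ℕ) : cw (a ^^^ b) = cw a + cw b := by
  apply Subtype.ext
  change wordOf (enc (a ^^^ b)) = wordOf (enc a) + wordOf (enc b)
  rw [enc_xor, wordOf_xor]

theorem cw_zero : cw 0 = 0 := by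
  apply Subtype.ext
  change wordOf (enc 0) = 0
  have : enc 0 = 0 := by decide +kernel
  rw [this, wordOf_zero]

theorem xor_additive_sum (h : ℕ → ZMod 2) (h0 : h 0 = 0) (hx : ∀ a b, h (a ^^^ b) = h a + h b) :
    ∀ n k, k < 2 ^ n → h k = ∑ j ∈ Finset.range n, if k.testBit j = true then h (2 ^ j) else 0 := by
  intro n
  induction n with
  | zero =>
    intro k hk
    have : k = 0 := by simpa using hk
    subst this
    simp [h0]
  | succ n ih =>
    intro k hk
    have hdec : k = (k % 2 ^ n) ^^^ (if k.testBit n = true then 2 ^ n else 0) := by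
      apply Nat.eq_of_testBit_eq
      intro i
      rw [Nat.testBit_xor, Nat.testBit_mod_two_pow]
      rcases lt_trichotomy i n with hi | rfl | hi
      · by_cases hb : k.testBit n = true
        · rw [if_pos hb, Nat.testBit_two_pow]
          simp [hi, hi.ne']
        · rw [if_neg hb]
          simp [hi]
      · by_cases hb : k.testBit i = true
        · rw [if_pos hb, Nat.testBit_two_pow]
          simp [hb]
        · rw [if_neg hb]
          simp at hb
          simp [hb]
      · have hk' : k.testBit i = false :=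
          Nat.testBit_lt_two_pow (lt_of_lt_of_le hk (Nat.pow_le_pow_right (by norm_num) hi))
        by_cases hb : k.testBit n = true
        · rw [if_pos hb, Nat.testBit_two_pow, hk']
          simp [hi.ne, not_lt.mpr hi.le]
        · rw [if_neg hb, hk']
          simp [not_lt.mpr hi.le]
    have hlt : k % 2 ^ n < 2 ^ n := Nat.mod_lt _ (by positivity)
    rw [Finset.sum_range_succ]
    conv_lhs => rw [hdec]
    rw [hx, ih _ hlt]
    congr 1
    · apply Finset.sum_congr rfl
      intro j hj
      rw [Nat.testBit_mod_two_pow]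
      simp [Finset.mem_range.mp hj]
    · by_cases hb : k.testBit n = true
      · rw [if_pos hb, if_pos hb]
      · rw [if_neg hb, if_neg hb, h0]

abbrev Fn := ↥golayCode →ₗ[ZMod 2] ZMod 2

theorem apply_cw_sum (g : Fn) {k : ℕ} (hk : k < 4096) :
    g (cw k) = ∑ j ∈ Finset.range 12, if k.testBit j = true then g (cw (2 ^ j)) else 0 :=
  xor_additive_sum (fun k => g (cw k)) (by simp [cw_zero]) (fun a b => by simp [cw_xor]) 12 k hk

/-- the coordinates of a functional on the code. -/
def coord (g : Fn) : ℕ := Nat.ofBits (fun j : Fin 12 => decide (g (cw (2 ^ (j : ℕ))) = 1))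

theorem coord_lt (g : Fn) : coord g < 4096 := Nat.ofBits_lt_two_pow _

theorem testBit_coord (g : Fn) {j : ℕ} (hj : j < 12) :
    (coord g).testBit j = decide (g (cw (2 ^ j)) = 1) := Nat.testBit_ofBits_lt _ _ hj

theorem zmod2_cases (a : ZMod 2) : a = 0 ∨ a = 1 := by revert a; decide

theorem apply_cw_cast (g : Fn) {k : ℕ} (hk : k < 4096) :
    g (cw k) = ((pcAux (k &&& coord g) 12 : ℕ) : ZMod 2) := by
  rw [apply_cw_sum g hk, pcAux_eq, Finset.card_filter, Nat.cast_sum]
  apply Finset.sum_congr rfl
  intro j hj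
  have hj' := Finset.mem_range.mp hj
  rw [Nat.testBit_and, testBit_coord g hj']
  by_cases hb : k.testBit j = true
  · rcases zmod2_cases (g (cw (2 ^ j))) with h | h
    · simp [hb, h]
    · simp [hb, h]
  · simp [hb]

theorem apply_cw_eq_zero_iff (g : Fn) {k : ℕ} (hk : k < 4096) :
    g (cw k) = 0 ↔ ev (coord g) k = true := by
  have hlt : k &&& coord g < 4096 := lt_of_le_of_lt Nat.and_le_left hk
  have h1 : ev (coord g) k = Nat.beq (pcAux (k &&& coord g) 12 % 2) 0 := by
    rw [← par_spec _ hlt]; rfl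
  rw [h1, Nat.beq_eq, apply_cw_cast g hk, ZMod.natCast_eq_zero_iff, Nat.dvd_iff_mod_eq_zero]

theorem ext_of_coord {g g' : Fn} (h : coord g = coord g') : g = g' := by
  ext c
  rw [← cw_info c, apply_cw_cast g (info_lt c), apply_cw_cast g' (info_lt c), h]

theorem coord_add (g g' : Fn) : coord (g + g') = coord g ^^^ coord g' := by
  apply Nat.eq_of_testBit_eq
  intro j
  by_cases hj : j < 12
  · rw [Nat.testBit_xor, testBit_coord _ hj, testBit_coord _ hj, testBit_coord _ hj,
      LinearMap.add_apply]
    generalize g (cw (2 ^ j)) = a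
    generalize g' (cw (2 ^ j)) = b
    revert a b
    decide
  · have h12 : (4096 : ℕ) ≤ 2 ^ j := by
      calc (4096 : ℕ) = 2 ^ 12 := by norm_num
        _ ≤ 2 ^ j := Nat.pow_le_pow_right (by norm_num) (not_lt.mp hj)
    rw [Nat.testBit_xor, Nat.testBit_lt_two_pow (lt_of_lt_of_le (coord_lt _) h12),
      Nat.testBit_lt_two_pow (lt_of_lt_of_le (coord_lt _) h12),
      Nat.testBit_lt_two_pow (lt_of_lt_of_le (coord_lt _) h12)]
    rfl

/-- the coordinate functional at a point. -/
def fpt (p : GolayPt) : Fn := (LinearMap.proj p).comp golayCode.subtype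

theorem fpt_apply (p : GolayPt) (c : ↥golayCode) : fpt p c = c.1 p := rfl

theorem coord_fpt (p : GolayPt) : coord (fpt p) = col (idx p) := by
  apply Nat.eq_of_testBit_eq
  intro j
  by_cases hj : j < 12
  · rw [testBit_coord _ hj, col_spec _ (idx_lt p) _ hj, fpt_apply]
    change decide ((if (enc (2 ^ j)).testBit (idx p) = true then (1 : ZMod 2) else 0) = 1) = _
    by_cases hb : (enc (2 ^ j)).testBit (idx p) = true
    · simp [hb]
    · simp [hb]
  · have h12 : (4096 : ℕ) ≤ 2 ^ j := by
      calc (4096 : ℕ) = 2 ^ 12 := by norm_num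
        _ ≤ 2 ^ j := Nat.pow_le_pow_right (by norm_num) (not_lt.mp hj)
    rw [Nat.testBit_lt_two_pow (lt_of_lt_of_le (coord_lt _) h12),
      Nat.testBit_lt_two_pow (lt_of_lt_of_le (col_lt _) h12)]

/-- the functional `c ↦ c p + c q`. -/
def fpair (p q : GolayPt) : Fn := fpt p + fpt q

theorem fpair_apply (p q : GolayPt) (c : ↥golayCode) : fpair p q c = c.1 p + c.1 q := rfl

theorem coord_fpair (p q : GolayPt) : coord (fpair p q) = col (idx p) ^^^ col (idx q) := by
  rw [fpair, coord_add, coord_fpt, coord_fpt]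

theorem fpair_inj {a b c d : GolayPt} (hab : a ≠ b) (hcd : c ≠ d) (h : fpair a b = fpair c d) :
    (a = c ∧ b = d) ∨ (a = d ∧ b = c) := by
  have h1 := congrArg coord h
  rw [coord_fpair, coord_fpair] at h1
  rcases pair_inj _ (idx_lt a) _ (idx_lt b) _ (idx_lt c) _ (idx_lt d)
    (fun h => hab (idx_injective h)) (fun h => hcd (idx_injective h)) h1 with ⟨h2, h3⟩ | ⟨h2, h3⟩
  · exact Or.inl ⟨idx_injective h2, idx_injective h3⟩
  · exact Or.inr ⟨idx_injective h2, idx_injective h3⟩

theorem fpair_meet {a b c d e f : GolayPt} (hab : a ≠ b) (hcd : c ≠ d) (hef : e ≠ f)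
    (h : fpair a b + fpair c d = fpair e f) : a = c ∨ a = d ∨ b = c ∨ b = d := by
  have h1 := congrArg coord h
  rw [coord_add, coord_fpair, coord_fpair, coord_fpair] at h1
  have h2 := pairSet_complete _ (idx_lt e) _ (idx_lt f) (fun h => hef (idx_injective h))
  rw [← h1] at h2
  rcases pair_meet _ (idx_lt a) _ (idx_lt b) _ (idx_lt c) _ (idx_lt d)
    (fun h => hab (idx_injective h)) (fun h => hcd (idx_injective h)) h2 with h3 | h3 | h3 | h3
  · exact Or.inl (idx_injective h3)
  · exact Or.inr (Or.inl (idx_injective h3))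
  · exact Or.inr (Or.inr (Or.inl (idx_injective h3)))
  · exact Or.inr (Or.inr (Or.inr (idx_injective h3)))

/-- the count of zeros on the words of weight 8 or 16 is invariant. -/
theorem cnt_comp (x : ↥golayCode ≃ₗ[ZMod 2] ↥golayCode) (hx : ∀ k ∈ Wl, info (x (cw k)) ∈ Wl)
    (g : Fn) : cnt (coord (g.comp x.toLinearMap)) = cnt (coord g) := by
  rw [cnt_eq, cnt_eq]
  set π : ℕ → ℕ := fun k => info (x (cw k)) with hπ
  have hperm : (Wl.map π).Perm Wl := by
    apply List.Subperm.perm_of_length_le
    · apply List.subperm_of_subset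
      · apply List.Nodup.map_on _ Wl_nodup
        intro a ha b hb hab
        have h1 := congrArg cw hab
        simp only [hπ, cw_info] at h1
        have h2 := congrArg info (x.injective h1)
        rwa [info_cw (mem_Wl.mp ha).1, info_cw (mem_Wl.mp hb).1] at h2
      · intro k hk
        obtain ⟨a, ha, rfl⟩ := List.mem_map.1 hk
        exact hx a ha
    · simp
  rw [← hperm.countP_eq (ev (coord g)), List.countP_map]
  apply List.countP_congr
  intro k hk
  have hk' := (mem_Wl.mp hk).1
  rw [← apply_cw_eq_zero_iff _ hk', Function.comp_apply, ← apply_cw_eq_zero_iff _ (info_lt _),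
    cw_info]
  rfl

theorem exists_pair (x : ↥golayCode ≃ₗ[ZMod 2] ↥golayCode) (hx : ∀ k ∈ Wl, info (x (cw k)) ∈ Wl)
    {p q : GolayPt} (hpq : p ≠ q) :
    ∃ p' q' : GolayPt, p' ≠ q' ∧ (fpair p q).comp x.toLinearMap = fpair p' q' := by
  have h1 := cnt_comp x hx (fpair p q)
  rw [coord_fpair p q, pair_cnt _ (idx_lt p) _ (idx_lt q) (fun h => hpq (idx_injective h))] at h1
  have h2 := (allBelow_iff _ _).1 chk1 _ (coord_lt ((fpair p q).comp x.toLinearMap))
  rw [orb_eq, notb_eq, h1] at h2
  have h3 : pairSet.testBit (coord ((fpair p q).comp x.toLinearMap)) = true := by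
    simpa using h2
  obtain ⟨e, he, f, hf, hef, h4⟩ := pairSet_sound _ (coord_lt _) h3
  refine ⟨pt e, pt f, ?_, ?_⟩
  · intro h
    apply hef
    rw [← idx_pt he, ← idx_pt hf, h]
  · apply ext_of_coord
    rw [h4, coord_fpair, idx_pt he, idx_pt hf]

end Cfsg.Agent.Lib.Helper30.Cocode
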