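import Mathlib

/-!
# A group inducing the full symmetric group faithfully on an invariant finite set
-/

set_option autoImplicit false

namespace Cfsg.Agent.Lib.Helper30

open scoped Pointwise

/-- a permutation fixing all points but one fixes that one too. -/
theorem perm_fix_of_fix_ne {α : Type*} (f : Equiv.Perm α) (a : α) (h : ∀ x, x ≠ a → f x = x) :
    f a = a := by
  by_contra hne
  exact hne (f.injective (h (f a) hne))

/-- two permutations agreeing off one point are equal at that point. -/
theorem perm_eq_of_eq_ne {α : Type*} (f g : Equiv.Perm α) (a : α) (h : ∀ x, x ≠ a → f x = g x) :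
    f a = g a := by
  have h1 := perm_fix_of_fix_ne (g⁻¹ * f) a (fun x hx => by
    rw [Equiv.Perm.mul_apply, h x hx]; exact g.symm_apply_apply x)
  rw [Equiv.Perm.mul_apply] at h1
  have h2 := congrArg g h1
  rwa [show g (g⁻¹ (f a)) = f a from g.apply_symm_apply (f a)] at h2

theorem smul_mem_iff_of_smul_finset_eq {G α : Type*} [Group G] [DecidableEq α] [MulAction G α]
    {g : G} {C : Finset α} (h : g • C = C) (x : α) : g • x ∈ C ↔ x ∈ C := by
  conv_lhs => rw [← h]
  exact Finset.smul_mem_smul_finset_iff g

/-- the action of a group on an invariant finite set. -/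
def resHom {G α : Type*} [Group G] [DecidableEq α] [MulAction G α] (C : Finset α)
    (hstab : ∀ g : G, g • C = C) : G →* Equiv.Perm ↥C where
  toFun g := Equiv.Perm.subtypePerm (MulAction.toPerm g)
    (fun x => smul_mem_iff_of_smul_finset_eq (hstab g) x)
  map_one' := by
    apply Equiv.ext; intro x; apply Subtype.ext
    exact one_smul G (x : α)
  map_mul' a b := by
    apply Equiv.ext; intro x; apply Subtype.ext
    exact mul_smul a b (x : α)

theorem resHom_apply {G α : Type*} [Group G] [DecidableEq α] [MulAction G α] (C : Finset α)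
    (hstab : ∀ g : G, g • C = C) (g : G) (x : ↥C) :
    ((resHom C hstab g x : ↥C) : α) = g • (x : α) := rfl

theorem mem_ker_resHom {G α : Type*} [Group G] [DecidableEq α] [MulAction G α] (C : Finset α)
    (hstab : ∀ g : G, g • C = C) (g : G) :
    g ∈ (resHom C hstab).ker ↔ ∀ p ∈ C, g • p = p := by
  rw [MonoidHom.mem_ker]
  constructor
  · intro h p hp
    exact congrArg (fun e : Equiv.Perm ↥C => ((e ⟨p, hp⟩ : ↥C) : α)) h
  · intro h
    apply Equiv.ext; intro x; apply Subtype.ext
    exact h x x.2

theorem resHom_surjective_iff {G α : Type*} [Group G] [DecidableEq α] [MulAction G α]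
    (C : Finset α) (hstab : ∀ g : G, g • C = C) :
    Function.Surjective (resHom C hstab) ↔
      ∀ σ : Equiv.Perm ↥C, ∃ g : G, ∀ p : ↥C, g • (p : α) = σ p := by
  constructor
  · intro h σ
    obtain ⟨g, rfl⟩ := h σ
    exact ⟨g, fun p => rfl⟩
  · intro h σ
    obtain ⟨g, hg⟩ := h σ
    refine ⟨g, ?_⟩
    apply Equiv.ext; intro x; apply Subtype.ext
    exact hg x

/-- a group acting faithfully on an invariant `n`-set and inducing all its permutations is the
symmetric group of degree `n`. -/
theorem nonempty_mulEquiv_perm_fin {G α : Type*} [Group G] [DecidableEq α] [MulAction G α]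
    (C : Finset α) (n : ℕ) (hC : C.card = n) (hstab : ∀ g : G, g • C = C)
    (hinj : ∀ g : G, (∀ p ∈ C, g • p = p) → g = 1)
    (hsurj : ∀ σ : Equiv.Perm ↥C, ∃ g : G, ∀ p : ↥C, g • (p : α) = σ p) :
    Nonempty (G ≃* Equiv.Perm (Fin n)) := by
  have h1 : Function.Injective (resHom C hstab) := by
    rw [injective_iff_map_eq_one]
    intro g hg
    exact hinj g ((mem_ker_resHom C hstab g).mp hg)
  have h2 := (resHom_surjective_iff C hstab).mpr hsurj
  exact ⟨(MulEquiv.ofBijective (resHom C hstab) ⟨h1, h2⟩).trans
    (Finset.equivFinOfCardEq hC).permCongrHom⟩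

/-- order of a group inducing all permutations of an invariant `n`-set. -/
theorem card_eq_factorial_mul {G α : Type*} [Group G] [DecidableEq α] [MulAction G α]
    (C : Finset α) (hstab : ∀ g : G, g • C = C)
    (hsurj : ∀ σ : Equiv.Perm ↥C, ∃ g : G, ∀ p : ↥C, g • (p : α) = σ p) :
    Nat.card G = Nat.card {g : G // ∀ p ∈ C, g • p = p} * C.card.factorial := by
  have h2 := (resHom_surjective_iff C hstab).mpr hsurj
  have h1 := (resHom C hstab).ker.card_mul_index
  rw [Subgroup.index_ker, MonoidHom.range_eq_top.mpr h2, Subgroup.card_top,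
    Nat.card_eq_fintype_card (α := Equiv.Perm ↥C), Fintype.card_perm, Fintype.card_coe] at h1
  rw [← h1]
  congr 1
  apply Nat.card_congr
  exact Equiv.subtypeEquivRight (fun g => mem_ker_resHom C hstab g)

end Cfsg.Agent.Lib.Helper30
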