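import Cfsg.Prelude.Def_SporadicCombinatorics
import Cfsg.Agent.Lib.Helper27.StabOrders
import Cfsg.Agent.Lib.Helper27.M12Order
import Cfsg.Agent.Lib.Helper30.PermRes

/-!
# Sharp 5-transitivity of the dodecad stabiliser, in terms of finite sets; hexad stabilisers
-/

set_option autoImplicit false

namespace Cfsg.Agent.Lib.Helper30

open Cfsg Cfsg.Agent.Lib.Helper27
open scoped Pointwise

theorem dodecad_extend {d : Finset GolayPt} (hd : d ∈ dodecads) (A : Finset GolayPt)
    (hA : A.card = 5) (hAd : A ⊆ d) (f : GolayPt → GolayPt) (hf : Set.InjOn f A)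
    (hfd : ∀ a ∈ A, f a ∈ d) : ∃ g ∈ M24, g • d = d ∧ ∀ a ∈ A, g a = f a := by
  let e := Finset.equivFinOfCardEq hA
  let x : Fin 5 ↪ GolayPt := ⟨fun i => (e.symm i : GolayPt), fun i j h => by
    exact e.symm.injective (Subtype.ext h)⟩
  let y : Fin 5 ↪ GolayPt := ⟨fun i => f (e.symm i : GolayPt), fun i j h => by
    exact e.symm.injective (Subtype.ext (hf (e.symm i).2 (e.symm j).2 h))⟩
  obtain ⟨g, hg, hgd, h⟩ := dodecad_five_trans hd x y (fun i => hAd (e.symm i).2)
    (fun i => hfd _ (e.symm i).2)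
  refine ⟨g, hg, hgd, fun a ha => ?_⟩
  have h1 := h (e ⟨a, ha⟩)
  have h2 : x (e ⟨a, ha⟩) = a := by
    change ((e.symm (e ⟨a, ha⟩) : ↥A) : GolayPt) = a
    rw [e.symm_apply_apply]
  have h3 : y (e ⟨a, ha⟩) = f a := by
    change f ((e.symm (e ⟨a, ha⟩) : ↥A) : GolayPt) = f a
    rw [e.symm_apply_apply]
  rwa [h2, h3] at h1

theorem dodecad_eq_one {d : Finset GolayPt} (hd : d ∈ dodecads) (A : Finset GolayPt)
    (hA : 5 ≤ A.card) (hAd : A ⊆ d) {u : Equiv.Perm GolayPt} (hu : u ∈ M24) (hud : u • d = d)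
    (hfix : ∀ a ∈ A, u a = a) : u = 1 := by
  obtain ⟨B, hBA, hB⟩ := Finset.exists_subset_card_eq hA
  let e := Finset.equivFinOfCardEq hB
  let x : Fin 5 ↪ GolayPt := ⟨fun i => (e.symm i : GolayPt), fun i j h => by
    exact e.symm.injective (Subtype.ext h)⟩
  exact eq_one_of_fix_dodecad_five hd x (fun i => hAd (hBA (e.symm i).2)) hu hud
    (fun i => hfix _ (hBA (e.symm i).2))

/-- an element of the dodecad stabiliser mapping five points of a hexad into it fixes the hexad. -/
theorem smul_hexad_eq {d C : Finset GolayPt} (hC : C ∈ hexadsOn d) {g : Equiv.Perm GolayPt}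
    (hg : g ∈ M24) (hgd : g • d = d) (A : Finset GolayPt) (hA : 5 ≤ A.card) (hAC : A ⊆ C)
    (h : ∀ a ∈ A, g a ∈ C) : g • C = C := by
  obtain ⟨h6, o, ho, rfl⟩ := hC
  have hgo : g • o = o := by
    apply octads_eq_of_inter (smul_mem_octads hg ho) ho
    calc 5 ≤ A.card := hA
      _ = (g • A).card := (Finset.card_smul_finset g A).symm
      _ ≤ (g • o ∩ o).card := by
        apply Finset.card_le_card
        intro z hz
        obtain ⟨a, ha, rfl⟩ := Finset.mem_smul_finset.mp hz
        rw [Finset.mem_inter]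
        exact ⟨Finset.smul_mem_smul_finset (Finset.mem_inter.mp (hAC ha)).1,
          (Finset.mem_inter.mp (h a ha)).1⟩
  rw [Finset.smul_finset_inter, hgo, hgd]

/-- every permutation of a hexad is induced by an element of the dodecad stabiliser. -/
theorem hexad_perm_induced {d C : Finset GolayPt} (hd : d ∈ dodecads) (hC : C ∈ hexadsOn d)
    (σ : Equiv.Perm ↥C) : ∃ g ∈ M24, g • d = d ∧ g • C = C ∧ ∀ p : ↥C, g p = σ p := by
  classical
  have hCd : C ⊆ d := by
    obtain ⟨_, o, _, rfl⟩ := hC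
    exact Finset.inter_subset_right
  obtain ⟨c, hc⟩ : C.Nonempty := by rw [← Finset.card_pos, hC.1]; norm_num
  have hA : (C.erase c).card = 5 := by rw [Finset.card_erase_of_mem hc, hC.1]
  let f : GolayPt → GolayPt := fun a => if h : a ∈ C then (σ ⟨a, h⟩ : GolayPt) else a
  have hf : ∀ a (h : a ∈ C), f a = σ ⟨a, h⟩ := fun a h => dif_pos h
  obtain ⟨g, hg, hgd, hga⟩ := dodecad_extend hd (C.erase c) hA
    ((Finset.erase_subset _ _).trans hCd) f (by
      intro a ha b hb hab
      have ha' := Finset.mem_of_mem_erase ha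
      have hb' := Finset.mem_of_mem_erase hb
      rw [hf a ha', hf b hb'] at hab
      exact congrArg Subtype.val (σ.injective (Subtype.ext hab))) (by
      intro a ha
      rw [hf a (Finset.mem_of_mem_erase ha)]
      exact hCd (σ _).2)
  have hgC : g • C = C := smul_hexad_eq hC hg hgd (C.erase c) hA.ge (Finset.erase_subset _ _) (by
    intro a ha
    rw [hga a ha, hf a (Finset.mem_of_mem_erase ha)]
    exact (σ _).2)
  refine ⟨g, hg, hgd, hgC, ?_⟩
  let τ : Equiv.Perm ↥C := Equiv.Perm.subtypePerm g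
    (fun x => smul_mem_iff_of_smul_finset_eq (G := Equiv.Perm GolayPt) hgC x)
  have hτ : ∀ p : ↥C, p ≠ ⟨c, hc⟩ → τ p = σ p := by
    intro p hp
    apply Subtype.ext
    have hp' : (p : GolayPt) ∈ C.erase c :=
      Finset.mem_erase.mpr ⟨fun h => hp (Subtype.ext h), p.2⟩
    change g p = σ p
    rw [hga p hp', hf p p.2]
  intro p
  by_cases hp : p = ⟨c, hc⟩
  · have := perm_eq_of_eq_ne τ σ ⟨c, hc⟩ hτ
    rw [hp]
    exact congrArg Subtype.val this
  · exact congrArg Subtype.val (hτ p hp)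

end Cfsg.Agent.Lib.Helper30
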