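import Cfsg.Agent.S1601
import Cfsg.Agent.S1602
import Cfsg.Agent.Lib.Helper30.PermRes

/-! the group `L₂(11)` inside `M₁₁`: order, simplicity, the subgroup `A₅` -/

set_option autoImplicit false
open scoped Pointwise
open Cfsg

namespace Cfsg.Agent.Lib.Helper30.L211

open Cfsg.Agent.Lib.Helper27 Cfsg.Agent.Lib.Helper30 Cfsg.Agent.S1601

/-- the stabiliser of a dodecad, a point on it and a point off it. -/
abbrev LL (d : Finset GolayPt) (p q : GolayPt) : Subgroup ↥M24 :=
  MulAction.stabilizer M24 d ⊓ MulAction.stabilizer M24 p ⊓ MulAction.stabilizer M24 q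

theorem card_simple (d : Finset Cfsg.GolayPt) (hd : d ∈ Cfsg.dodecads) (p q : Cfsg.GolayPt)
    (hp : p ∈ d) (hq : q ∉ d) : Nat.card ↥(LL d p q) = 660 ∧ IsSimpleGroup ↥(LL d p q) := by
  have hdc : dᶜ.card = 12 := (compl_mem_dodecads' hd).2
  -- a third point
  have third : ∀ a b : GolayPt, ∃ w, w ∉ d ∧ w ≠ a ∧ w ≠ b := by
    intro a b
    have h1 : 0 < ((dᶜ.erase a).erase b).card := by
      have := Finset.pred_card_le_card_erase (s := dᶜ) (a := a)
      have := Finset.pred_card_le_card_erase (s := dᶜ.erase a) (a := b)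
      omega
    obtain ⟨w, hw⟩ := Finset.card_pos.mp h1
    simp only [Finset.mem_erase, Finset.mem_compl] at hw
    exact ⟨w, hw.2.2, hw.2.1, hw.1⟩
  have hmem : ∀ g : ↥M24, g ∈ MulAction.stabilizer M24 d → ∀ z : GolayPt,
      ((g : Equiv.Perm GolayPt) z ∈ d ↔ z ∈ d) := by
    intro g hg z
    have h : (g : Equiv.Perm GolayPt) • d = d := hg
    constructor
    · intro hz
      rw [← h] at hz
      obtain ⟨w, hw, e⟩ := Finset.mem_smul_finset.mp hz
      have : w = z := (g : Equiv.Perm GolayPt).injective e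
      exact this ▸ hw
    · intro hz
      rw [← h]
      exact Finset.mem_smul_finset.mpr ⟨z, hz, rfl⟩
  -- the order
  have hcard : Nat.card ↥(MulAction.stabilizer M24 d ⊓ MulAction.stabilizer M24 p ⊓
      MulAction.stabilizer M24 q) = 660 := by
    have h := card_step (MulAction.stabilizer M24 d ⊓ MulAction.stabilizer M24 p) q
      {y : GolayPt | y ∉ d} (by
        intro y hy
        by_cases hyq : y = q
        · exact ⟨1, one_mem _, by rw [hyq]; rfl⟩
        · obtain ⟨w, hw, hw1, hw2⟩ := third q y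
          obtain ⟨g, hg, h1, _, _⟩ := trans3 hd hp (a := q) (b := y) (c := w) (a' := y) (b' := q)
            (c' := w) (Ne.symm hyq) (Ne.symm hw1) (Ne.symm hw2) hyq (Ne.symm hw2) (Ne.symm hw1)
            hq hy hw hy hq hw
          exact ⟨g, hg, h1⟩) (by
        intro g hg
        show ¬ ((g : Equiv.Perm GolayPt) q ∈ d)
        rw [hmem g hg.1]; exact hq)
    have h12 : {y : GolayPt | y ∉ d}.ncard = 12 := by
      have : {y : GolayPt | y ∉ d} = ↑(dᶜ) := by ext y; simp
      rw [this, Set.ncard_coe_finset, hdc]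
    rw [Cfsg.Agent.S0387.result d hd p hp, h12] at h
    omega
  obtain ⟨y0, hy0, hy0q, _⟩ := third q q
  have hfin : Finite ↥(MulAction.stabilizer M24 d ⊓ MulAction.stabilizer M24 p ⊓
      MulAction.stabilizer M24 q) := Nat.finite_of_card_ne_zero (by rw [hcard]; norm_num)
  have : Fact (Nat.Prime 11) := ⟨by norm_num⟩
  have hsimple : IsSimpleGroup ↥(MulAction.stabilizer M24 d ⊓ MulAction.stabilizer M24 p ⊓
      MulAction.stabilizer M24 q) := by
    refine Cfsg.Agent.Lib.Helper7.isSimpleGroup_of_prime_degree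
      (Y := GolayPt) {y : GolayPt | y ∉ d ∧ y ≠ q} y0 ⟨hy0, hy0q⟩ ?_ ?_ ?_ ?_ 11 5 660
      (by norm_num) ?_ hcard (by norm_num) (by norm_num) (by norm_num) (by decide)
    · rintro ⟨g, hg⟩ z ⟨hz, hzq⟩
      refine ⟨?_, ?_⟩
      · show ¬ ((g : Equiv.Perm GolayPt) z ∈ d)
        rw [hmem g hg.1.1]; exact hz
      · intro e
        have hgq : (g : Equiv.Perm GolayPt) q = q := hg.2
        exact hzq ((g : Equiv.Perm GolayPt).injective (Eq.trans e hgq.symm))
    · rintro z ⟨hz, hzq⟩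
      by_cases hzy : z = y0
      · exact ⟨1, by rw [hzy]; rfl⟩
      · obtain ⟨g, hg, h1, h2, _⟩ := trans3 hd hp (a := q) (b := y0) (c := z) (a' := q) (b' := z)
          (c' := y0) (Ne.symm hy0q) (Ne.symm hzq) (Ne.symm hzy) (Ne.symm hzq) (Ne.symm hy0q) hzy
          hq hy0 hz hq hz hy0
        exact ⟨⟨g, hg, h1⟩, h2⟩
    · rintro z ⟨hz, hzq⟩ hzy z' ⟨hz', hzq'⟩ hzy'
      obtain ⟨g, hg, h1, h2, h3⟩ := trans3 hd hp (a := q) (b := y0) (c := z) (a' := q) (b' := y0)
        (c' := z') (Ne.symm hy0q) (Ne.symm hzq) (Ne.symm hzy) (Ne.symm hy0q) (Ne.symm hzq')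
        (Ne.symm hzy') hq hy0 hz hq hy0 hz'
      exact ⟨⟨g, hg, h1⟩, h2, h3⟩
    · rintro ⟨g, hg⟩ hfix
      apply Subtype.ext
      apply Subtype.ext
      show (g : Equiv.Perm GolayPt) = 1
      have hgd : (g : Equiv.Perm GolayPt) • d = d := hg.1.1
      refine dodecad_eq_one (compl_mem_dodecads' hd) dᶜ (by rw [hdc]; norm_num) (Finset.Subset.refl _)
        g.2 (by rw [smul_compl', hgd]) ?_
      intro a ha
      by_cases haq : a = q
      · rw [haq]; exact hg.2
      · exact hfix a ⟨Finset.mem_compl.mp ha, haq⟩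
    · have : {y : GolayPt | y ∉ d ∧ y ≠ q} = ↑(dᶜ.erase q) := by
        ext y; simp [and_comm]
      rw [this, Set.ncard_coe_finset, Finset.card_erase_of_mem (Finset.mem_compl.mpr hq), hdc]
  exact ⟨hcard, hsimple⟩

theorem apply_mem_iff {d : Finset GolayPt} {k : Equiv.Perm GolayPt} (h : k • d = d) (z : GolayPt) :
    k z ∈ d ↔ z ∈ d := by
  conv_lhs => rw [← h]
  exact Finset.smul_mem_smul_finset_iff k

/-- the eleven points. -/
def OO (d : Finset GolayPt) (q : GolayPt) : Set GolayPt := {y | y ∉ d ∧ y ≠ q}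

theorem ncard_OO {d : Finset GolayPt} (hd : d ∈ dodecads) {q : GolayPt} (hq : q ∉ d) :
    (OO d q).ncard = 11 := by
  have : OO d q = ↑(dᶜ.erase q) := by
    ext y; simp [OO, and_comm]
  rw [this, Set.ncard_coe_finset, Finset.card_erase_of_mem (Finset.mem_compl.mpr hq),
    (compl_mem_dodecads' hd).2]

theorem smul_mem_OO {d : Finset GolayPt} {p q : GolayPt} (l : ↥(LL d p q)) {y : GolayPt}
    (hy : y ∈ OO d q) : l • y ∈ OO d q := by
  obtain ⟨⟨g, hgM⟩, ⟨hgd, hgp⟩, hgq⟩ := l
  have h1 : g • d = d := hgd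
  have h2 : g q = q := hgq
  refine ⟨?_, ?_⟩
  · show ¬ (g y ∈ d)
    rw [apply_mem_iff h1]; exact hy.1
  · intro e
    exact hy.2 (g.injective (Eq.trans e h2.symm))

theorem two_trans {d : Finset GolayPt} (hd : d ∈ dodecads) {p q : GolayPt} (hp : p ∈ d)
    (hq : q ∉ d) {a b c e : GolayPt} (ha : a ∈ OO d q) (hb : b ∈ OO d q) (hc : c ∈ OO d q)
    (he : e ∈ OO d q) (hab : a ≠ b) (hce : c ≠ e) :
    ∃ l : ↥(LL d p q), l • a = c ∧ l • b = e := by
  obtain ⟨g, hg, h1, h2, h3⟩ := trans3 hd hp (a := q) (b := a) (c := b) (a' := q) (b' := c)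
    (c' := e) (Ne.symm ha.2) (Ne.symm hb.2) hab (Ne.symm hc.2) (Ne.symm he.2) hce
    hq ha.1 hb.1 hq hc.1 he.1
  exact ⟨⟨g, hg, h1⟩, h2, h3⟩

theorem index_stab {d : Finset GolayPt} (hd : d ∈ dodecads) {p q q' : GolayPt} (hp : p ∈ d)
    (hq : q ∉ d) (hq' : q' ∈ OO d q) :
    (MulAction.stabilizer ↥(LL d p q) q').index = 11 := by
  rw [MulAction.index_stabilizer, ← ncard_OO hd hq]
  congr 1
  ext y
  constructor
  · rintro ⟨l, rfl⟩
    exact smul_mem_OO l hq'
  · intro hy
    by_cases h : y = q'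
    · exact ⟨1, by rw [h]; exact one_smul _ _⟩
    · obtain ⟨l, h1, -⟩ := two_trans hd hp hq hq' hy hy hq' (Ne.symm h) h
      exact ⟨l, h1⟩

theorem stab_equiv_alt {d : Finset GolayPt} (hd : d ∈ dodecads) {p q q' : GolayPt} (hp : p ∈ d)
    (hq : q ∉ d) (hq' : q' ∈ OO d q) :
    Nonempty (↥(MulAction.stabilizer ↥(LL d p q) q') ≃* alternatingGroup (Fin 5)) := by
  obtain ⟨o, ho, hpo, hqo, hq'o, h6⟩ := Cfsg.Agent.S1602.exists_octad_pair hd hp hq hq'.1
    (Ne.symm hq'.2)
  have hph : p ∈ o ∩ d := Finset.mem_inter.mpr ⟨hpo, hp⟩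
  have hC5 : ((o ∩ d).erase p).card = 5 := by rw [Finset.card_erase_of_mem hph, h6]
  have hCd : (o ∩ d).erase p ⊆ d := (Finset.erase_subset _ _).trans Finset.inter_subset_right
  have hout : o \ d = {q, q'} := by
    symm
    apply Finset.eq_of_subset_of_card_le
    · intro x hx
      rw [Finset.mem_insert, Finset.mem_singleton] at hx
      rcases hx with rfl | rfl
      · exact Finset.mem_sdiff.mpr ⟨hqo, hq⟩
      · exact Finset.mem_sdiff.mpr ⟨hq'o, hq'.1⟩
    · have := Finset.card_sdiff_add_card_inter o d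
      rw [h6, ho.2] at this
      rw [Finset.card_pair (Ne.symm hq'.2)]
      omega
  have key : ∀ k : Equiv.Perm GolayPt, k ∈ M24 → k • d = d → k p = p → k q = q → k q' = q' →
      k • (o ∩ d).erase p = (o ∩ d).erase p := by
    intro k hk hgd hgp hgq hgq'
    have hgo : k • o = o := by
      apply Cfsg.Agent.S1602.octad_pair_unique hd (smul_mem_octads hk ho) ho hp _ hpo
      · conv_lhs => rw [← hgd]
        rw [← Finset.smul_finset_sdiff, hout, Finset.smul_finset_insert,
          Finset.smul_finset_singleton]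
        show {k q, k q'} = _
        rw [hgq, hgq']
      · rw [← hgp]; exact Finset.smul_mem_smul_finset hpo
    rw [Finset.erase_eq, Finset.smul_finset_sdiff, Finset.smul_finset_inter, hgo, hgd,
      Finset.smul_finset_singleton]
    congr 2
  have hstab : ∀ g : ↥(MulAction.stabilizer ↥(LL d p q) q'),
      g • (o ∩ d).erase p = (o ∩ d).erase p := by
    intro g
    exact key g.1.1.1 g.1.1.2 g.1.2.1.1 g.1.2.1.2 g.1.2.2 g.2
  have hinj : Function.Injective (resHom ((o ∩ d).erase p) hstab) := by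
    rw [injective_iff_map_eq_one]
    intro g hg
    have h1 : g ∈ (resHom ((o ∩ d).erase p) hstab).ker := hg
    rw [mem_ker_resHom] at h1
    apply Subtype.ext
    apply Subtype.ext
    apply Subtype.ext
    exact dodecad_eq_one hd _ hC5.ge hCd g.1.1.2 g.1.2.1.1 h1
  have hcard : Nat.card ↥(MulAction.stabilizer ↥(LL d p q) q') = 60 := by
    have := (MulAction.stabilizer ↥(LL d p q) q').card_mul_index
    rw [index_stab hd hp hq hq', (card_simple d hd p q hp hq).1] at this
    omega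
  have hrange : (resHom ((o ∩ d).erase p) hstab).range = alternatingGroup ↥((o ∩ d).erase p) := by
    apply Equiv.Perm.eq_alternatingGroup_of_index_eq_two
    have h1 := (resHom ((o ∩ d).erase p) hstab).range.card_mul_index
    rw [← Nat.card_congr (MonoidHom.ofInjective hinj).toEquiv, hcard, Nat.card_eq_fintype_card,
      Fintype.card_perm, Fintype.card_coe, hC5] at h1
    have : Nat.factorial 5 = 120 := rfl
    omega
  exact ⟨((MonoidHom.ofInjective hinj).trans (MulEquiv.subgroupCongr hrange)).trans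
    (Equiv.altCongrHom (Finset.equivFinOfCardEq hC5))⟩

/-- transport of a 2-transitive action to the cosets of the image of a point stabiliser. -/
theorem two_trans_transport {L P X : Type*} [Group L] [Group P] [MulAction L X] (e : L ≃* P)
    (x0 : X) (O : Set X) (hO : ∀ l : L, l • x0 ∈ O)
    (h2 : ∀ a ∈ O, ∀ b ∈ O, ∀ c ∈ O, ∀ d ∈ O, a ≠ b → c ≠ d → ∃ l : L, l • a = c ∧ l • b = d) :
    MulAction.IsMultiplyPretransitive P
      (P ⧸ (MulAction.stabilizer L x0).map e.toMonoidHom) 2 := by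
  have key : ∀ l1 l2 : L, ((e l1 : P) : P ⧸ (MulAction.stabilizer L x0).map e.toMonoidHom) = (e l2 : P)
      ↔ l1 • x0 = l2 • x0 := by
    intro l1 l2
    rw [QuotientGroup.eq, ← map_inv, ← map_mul, Subgroup.mem_map_equiv, MulEquiv.symm_apply_apply,
      MulAction.mem_stabilizer_iff, mul_smul, inv_smul_eq_iff, eq_comm]
  rw [MulAction.is_two_pretransitive_iff]
  intro a b c d hab hcd
  obtain ⟨a', rfl⟩ := QuotientGroup.mk_surjective a
  obtain ⟨b', rfl⟩ := QuotientGroup.mk_surjective b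
  obtain ⟨c', rfl⟩ := QuotientGroup.mk_surjective c
  obtain ⟨d', rfl⟩ := QuotientGroup.mk_surjective d
  obtain ⟨la, rfl⟩ := e.surjective a'
  obtain ⟨lb, rfl⟩ := e.surjective b'
  obtain ⟨lc, rfl⟩ := e.surjective c'
  obtain ⟨ld, rfl⟩ := e.surjective d'
  obtain ⟨l, h3, h4⟩ := h2 _ (hO la) _ (hO lb) _ (hO lc) _ (hO ld)
    (fun h => hab ((key la lb).2 h)) (fun h => hcd ((key lc ld).2 h))
  refine ⟨e l, ?_, ?_⟩
  · have : e l • ((e la : P) : P ⧸ (MulAction.stabilizer L x0).map e.toMonoidHom)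
        = ((e (l * la) : P) : P ⧸ (MulAction.stabilizer L x0).map e.toMonoidHom) := by
      rw [map_mul]; rfl
    rw [this, key, mul_smul, h3]
  · have : e l • ((e lb : P) : P ⧸ (MulAction.stabilizer L x0).map e.toMonoidHom)
        = ((e (l * lb) : P) : P ⧸ (MulAction.stabilizer L x0).map e.toMonoidHom) := by
      rw [map_mul]; rfl
    rw [this, key, mul_smul, h4]

end Cfsg.Agent.Lib.Helper30.L211
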