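import Cfsg.Agent.Lib.Helper30.Order72
import Cfsg.Agent.Lib.Helper92.M12Chain
import Cfsg.Agent.Lib.Helper27.M12Order

/-!
# The stabiliser of three points in `M12` has the elementwise data of `3^2 : Q8`
-/

set_option autoImplicit false

namespace Cfsg.Agent.Lib.Helper30

open Cfsg Cfsg.Agent.Lib.Helper27 Cfsg.Agent.Lib.Helper92
open scoped Pointwise

def cubeCodes : List ℕ := [
  984818244535754528103549039458486304,
  487607080158395075740321133224921120,
  984769902586367543974814854303385632,
  928952864966028496604741530750814240,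
  984534996141977609297800625156032544,
  928718206277989008510816407558424608,
  487655643029606470073469406179395616,
  487373122709212905255923294881187872,
  929000492124499343650182431580424224]

def invoCodes : List ℕ := [
  970499966350631336865513127433832480,
  486073779993727295785104656607348768,
  970254902120350598020240965873371168,
  944293816565412651426207388111472672,
  970531819526550031117983620406741024,
  944569772236290697579231267829188640,
  486317894067777385906476470720956448,
  486349973926430203268823274221996064,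
  944538627742660781242037951888164896]

/-- code of the square. -/
def sqCode (c : ℕ) : ℕ := mulCode c c
/-- code of the cube. -/
def cuCode (c : ℕ) : ℕ := mulCode c (mulCode c c)
/-- code of the fourth power. -/
def quCode (c : ℕ) : ℕ := mulCode (mulCode c c) (mulCode c c)

theorem permOf_sqCode {c : ℕ} (hv : validCode c = true) : permOf (sqCode c) = permOf c ^ 2 := by
  unfold sqCode; rw [permOf_mulCode hv hv, pow_two]

theorem permOf_cuCode {c : ℕ} (hv : validCode c = true) : permOf (cuCode c) = permOf c ^ 3 := by
  unfold cuCode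
  rw [permOf_mulCode hv (validCode_mulCode hv hv), permOf_mulCode hv hv, pow_succ', pow_two]

theorem permOf_quCode {c : ℕ} (hv : validCode c = true) : permOf (quCode c) = permOf c ^ 4 := by
  unfold quCode
  rw [permOf_mulCode (validCode_mulCode hv hv) (validCode_mulCode hv hv), permOf_mulCode hv hv,
    ← pow_two, ← pow_two, ← pow_mul]

theorem valid_sqCode {c : ℕ} (hv : validCode c = true) : validCode (sqCode c) = true :=
  validCode_mulCode hv hv

theorem valid_cuCode {c : ℕ} (hv : validCode c = true) : validCode (cuCode c) = true :=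
  validCode_mulCode hv (validCode_mulCode hv hv)

theorem valid_quCode {c : ℕ} (hv : validCode c = true) : validCode (quCode c) = true :=
  validCode_mulCode (validCode_mulCode hv hv) (validCode_mulCode hv hv)

theorem LD3_pow : ∀ g ∈ fixer LD3, g ^ 3 = 1 ∨ g ^ 4 = 1 := by
  intro g hg
  obtain ⟨c, hv, rfl, hf⟩ := forall_of_covers
    (f := fun c => Helper92.bor (isId (cuCode c)) (isId (quCode c))) covers_LD3 (by decide +kernel) g hg
  rw [Helper92.bor_eq, Bool.or_eq_true] at hf
  rcases hf with hf | hf
  · left; rw [← permOf_cuCode hv]; exact permOf_eq_one hf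
  · right; rw [← permOf_quCode hv]; exact permOf_eq_one hf

theorem LD3_cube : ∀ g ∈ fixer LD3, g ^ 3 = 1 → ∃ c ∈ cubeCodes, permOf c = g := by
  intro g hg h3
  obtain ⟨c, hv, rfl, hf⟩ := forall_of_covers
    (f := fun c => Helper92.bor (bnot (isId (cuCode c))) (anyList (Nat.beq c) cubeCodes)) covers_LD3
    (by decide +kernel) g hg
  rw [Helper92.bor_eq, Bool.or_eq_true, bnot_eq_true] at hf
  rcases hf with hf | hf
  · rw [← permOf_cuCode hv, permOf_eq_one_iff (valid_cuCode hv), hf] at h3
    exact absurd h3 (by decide)
  · obtain ⟨a, ha, hca⟩ := (anyList_iff _ _).mp hf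
    rw [Nat.beq_eq] at hca
    exact ⟨a, ha, by rw [hca]⟩

theorem LD3_invo : ∀ g ∈ fixer LD3, g ≠ 1 → g ^ 2 = 1 → ∃ c ∈ invoCodes, permOf c = g := by
  intro g hg h1 h2
  obtain ⟨c, hv, rfl, hf⟩ := forall_of_covers
    (f := fun c => Helper92.bor (Helper92.bor (bnot (isId (sqCode c))) (isId c)) (anyList (Nat.beq c) invoCodes))
    covers_LD3 (by decide +kernel) g hg
  rw [Helper92.bor_eq, Bool.or_eq_true, Helper92.bor_eq, Bool.or_eq_true, bnot_eq_true] at hf
  rcases hf with (hf | hf) | hf
  · rw [← permOf_sqCode hv, permOf_eq_one_iff (valid_sqCode hv), hf] at h2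
    exact absurd h2 (by decide)
  · exact absurd (permOf_eq_one hf) h1
  · obtain ⟨a, ha, hca⟩ := (anyList_iff _ _).mp hf
    rw [Nat.beq_eq] at hca
    exact ⟨a, ha, by rw [hca]⟩

theorem invoCodes_pairs : ∀ a ∈ invoCodes, ∀ b ∈ invoCodes,
    validCode a = true ∧ validCode b = true ∧ isId (cuCode (mulCode a b)) = true := by
  have : allList (fun a => allList (fun b => band (validCode a) (band (validCode b)
      (isId (cuCode (mulCode a b))))) invoCodes) invoCodes = true := by decide +kernel
  rw [allList_iff] at this
  intro a ha b hb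
  have h := (allList_iff _ _).1 (this a ha) b hb
  rw [band_eq, Bool.and_eq_true, band_eq, Bool.and_eq_true] at h
  exact ⟨h.1, h.2.1, h.2.2⟩

theorem LD3_eq_D3 : fixer LD3 = fixer D3 := rfl

theorem isM9_LD3 : IsM9 ↥(fixer D3) where
  card := card_fixer_D3
  pow x := by
    rcases LD3_pow x.1 x.2 with h | h
    · left; exact Subtype.ext h
    · right; exact Subtype.ext h
  cube := by
    classical
    calc {x : ↥(fixer D3) | x ^ 3 = 1}.ncard
        ≤ ((cubeCodes.map permOf).toFinset : Set (Equiv.Perm GolayPt)).ncard := by
          apply Set.ncard_le_ncard_of_injOn Subtype.val _ Subtype.val_injective.injOn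
            (Set.toFinite _)
          intro x hx
          rw [Finset.mem_coe, List.mem_toFinset, List.mem_map]
          exact LD3_cube x.1 x.2 (congrArg Subtype.val hx)
      _ ≤ 9 := by
          rw [Set.ncard_coe_finset]
          exact (List.toFinset_card_le _).trans (by rw [List.length_map]; rfl)
  invol x y hx hy hx2 hy2 := by
    obtain ⟨a, ha, hax⟩ := LD3_invo x.1 x.2 (fun hc => hx (Subtype.ext hc)) (congrArg Subtype.val hx2)
    obtain ⟨b, hb, hby⟩ := LD3_invo y.1 y.2 (fun hc => hy (Subtype.ext hc)) (congrArg Subtype.val hy2)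
    obtain ⟨hva, hvb, hid⟩ := invoCodes_pairs a ha b hb
    apply Subtype.ext
    change (x.1 * y.1) ^ 3 = 1
    rw [← hax, ← hby, ← permOf_mulCode hva hvb, ← permOf_cuCode (validCode_mulCode hva hvb)]
    exact permOf_eq_one hid

end Cfsg.Agent.Lib.Helper30
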