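import Cfsg.Agent.S0016

/-!
# Groups of order 72 of shape `3^2 : Q8`, recognised from elementwise data
-/

set_option autoImplicit false

namespace Cfsg.Agent.Lib.Helper30

/-- elementwise data of the group `3^2 : Q8`. -/
structure IsM9 (G : Type*) [Group G] : Prop where
  card : Nat.card G = 72
  pow : ∀ x : G, x ^ 3 = 1 ∨ x ^ 4 = 1
  cube : {x : G | x ^ 3 = 1}.ncard ≤ 9
  invol : ∀ x y : G, x ≠ 1 → y ≠ 1 → x ^ 2 = 1 → y ^ 2 = 1 → (x * y) ^ 3 = 1

theorem IsM9.of_equiv {G G' : Type*} [Group G] [Group G'] (e : G ≃* G') (h : IsM9 G') : IsM9 G where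
  card := by rw [Nat.card_congr e.toEquiv, h.card]
  pow x := by
    rcases h.pow (e x) with h1 | h1
    · left; apply e.injective; rw [map_pow, h1, map_one]
    · right; apply e.injective; rw [map_pow, h1, map_one]
  cube := by
    refine le_trans (le_of_eq ?_) h.cube
    rw [← Set.ncard_image_of_injective _ e.injective]
    congr 1
    ext y
    constructor
    · rintro ⟨x, hx, rfl⟩
      change e x ^ 3 = 1
      rw [← map_pow, show x ^ 3 = 1 from hx, map_one]
    · intro hy
      refine ⟨e.symm y, ?_, e.apply_symm_apply y⟩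
      change e.symm y ^ 3 = 1
      rw [← map_pow, show y ^ 3 = 1 from hy, map_one]
  invol x y hx hy hx2 hy2 := by
    apply e.injective
    rw [map_pow, map_mul, map_one]
    exact h.invol (e x) (e y) (fun hc => hx (e.injective (by rw [hc, map_one])))
      (fun hc => hy (e.injective (by rw [hc, map_one]))) (by rw [← map_pow, hx2, map_one])
      (by rw [← map_pow, hy2, map_one])

theorem eq_one_of_pow_coprime {G : Type*} [Group G] {x : G} {a b : ℕ} (ha : x ^ a = 1)
    (hb : x ^ b = 1) (hab : Nat.Coprime a b) : x = 1 := by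
  have h1 := orderOf_dvd_of_pow_eq_one ha
  have h2 := orderOf_dvd_of_pow_eq_one hb
  have h3 : orderOf x ∣ 1 := by rw [← hab]; exact Nat.dvd_gcd h1 h2
  exact orderOf_eq_one_iff.mp (Nat.dvd_one.mp h3)

theorem IsM9.card_sylow3 {G : Type*} [Group G] (h : IsM9 G) (Q : Sylow 3 G) : Nat.card Q = 9 := by
  have : Finite G := Nat.finite_of_card_ne_zero (by rw [h.card]; norm_num)
  obtain ⟨k, hk⟩ := (IsPGroup.iff_card.mp Q.2)
  have h1 := (Q : Subgroup G).card_mul_index
  have h2 := Q.not_dvd_index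
  rw [h.card] at h1
  have hk' : Nat.card (Q : Subgroup G) = 3 ^ k := hk
  rw [hk'] at h1
  have hk4 : k < 4 := by
    by_contra hc
    have : 3 ^ 4 ≤ 3 ^ k := Nat.pow_le_pow_right (by norm_num) (by omega)
    have h3 : 3 ^ k ∣ 72 := ⟨_, h1.symm⟩
    have := Nat.le_of_dvd (by norm_num) h3
    omega
  rw [hk]
  interval_cases k
  · exfalso; apply h2; omega
  · exfalso; apply h2; omega
  · norm_num
  · omega

theorem IsM9.card_sylow2 {G : Type*} [Group G] (h : IsM9 G) (P : Sylow 2 G) : Nat.card P = 8 := by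
  have : Finite G := Nat.finite_of_card_ne_zero (by rw [h.card]; norm_num)
  obtain ⟨k, hk⟩ := (IsPGroup.iff_card.mp P.2)
  have h1 := (P : Subgroup G).card_mul_index
  have h2 := P.not_dvd_index
  rw [h.card] at h1
  have hk' : Nat.card (P : Subgroup G) = 2 ^ k := hk
  rw [hk'] at h1
  have hk4 : k < 7 := by
    by_contra hc
    have : 2 ^ 7 ≤ 2 ^ k := Nat.pow_le_pow_right (by norm_num) (by omega)
    have h3 : 2 ^ k ∣ 72 := ⟨_, h1.symm⟩
    have := Nat.le_of_dvd (by norm_num) h3
    omega
  rw [hk]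
  interval_cases k
  · exfalso; apply h2; omega
  · exfalso; apply h2; omega
  · exfalso; apply h2; omega
  · norm_num
  · omega
  · omega
  · omega

theorem IsM9.sylow3 {G : Type*} [Group G] (h : IsM9 G) (Q : Sylow 3 G) :
    (Q : Subgroup G).Normal ∧ Nat.card Q = 9 ∧ ∀ x ∈ (Q : Subgroup G), x ^ 3 = 1 := by
  have : Finite G := Nat.finite_of_card_ne_zero (by rw [h.card]; norm_num)
  have hc := h.card_sylow3 Q
  have hexp : ∀ x ∈ (Q : Subgroup G), x ^ 3 = 1 := by
    intro x hx
    rcases h.pow x with h1 | h1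
    · exact h1
    · have h9 : x ^ 9 = 1 := by
        have := pow_card_eq_one' (G := ↥(Q : Subgroup G)) (x := ⟨x, hx⟩)
        have hc' : Nat.card ↥(Q : Subgroup G) = 9 := hc
        rw [hc'] at this
        exact congrArg Subtype.val this
      rw [eq_one_of_pow_coprime h1 h9 (by norm_num), one_pow]
  have hset : ((Q : Subgroup G) : Set G) = {x : G | x ^ 3 = 1} := by
    apply Set.eq_of_subset_of_ncard_le hexp _ (Set.toFinite _)
    refine h.cube.trans (le_of_eq ?_)
    rw [← hc]; rfl
  refine ⟨⟨fun n hn g => ?_⟩, hc, hexp⟩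
  have : g * n * g⁻¹ ∈ ((Q : Subgroup G) : Set G) := by
    rw [hset]
    change (g * n * g⁻¹) ^ 3 = 1
    rw [conj_pow, hexp n hn]; group
  exact this

theorem IsM9.sylow2 {G : Type*} [Group G] (h : IsM9 G) (P : Sylow 2 G) :
    Nonempty (↥P ≃* QuaternionGroup 2) := by
  have : Finite G := Nat.finite_of_card_ne_zero (by rw [h.card]; norm_num)
  have hc : Nat.card ↥(P : Subgroup G) = 8 := h.card_sylow2 P
  have hP : IsPGroup 2 ↥(P : Subgroup G) := P.2
  -- subgroups of order two are generated by an involution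
  have key : ∀ H : Subgroup ↥(P : Subgroup G), Nat.card H = 2 →
      ∃ x : ↥(P : Subgroup G), x ≠ 1 ∧ x ^ 2 = 1 ∧ H = Subgroup.zpowers x := by
    intro H hH
    have hne : H ≠ ⊥ := by
      intro hb
      rw [hb, Subgroup.card_bot] at hH
      omega
    obtain ⟨x', hx'⟩ := Subgroup.ne_bot_iff_exists_ne_one.mp hne
    obtain ⟨x, hx⟩ := x'
    have hx1 : x ≠ 1 := fun hc => hx' (Subtype.ext hc)
    have hx2 : x ^ 2 = 1 := by
      have := pow_card_eq_one' (G := ↥H) (x := ⟨x, hx⟩)
      rw [hH] at this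
      exact congrArg Subtype.val this
    refine ⟨x, hx1, hx2, ?_⟩
    symm
    apply Subgroup.eq_of_le_of_card_ge (Subgroup.zpowers_le.mpr hx)
    rw [hH, Nat.card_zpowers, orderOf_eq_prime hx2 hx1]
  have huniq : ∀ H K : Subgroup ↥(P : Subgroup G), Nat.card H = 2 → Nat.card K = 2 → H = K := by
    intro H K hH hK
    obtain ⟨x, hx1, hx2, rfl⟩ := key H hH
    obtain ⟨y, hy1, hy2, rfl⟩ := key K hK
    have h3 : (x * y) ^ 3 = 1 := by
      apply Subtype.ext
      exact h.invol x.1 y.1 (fun hc => hx1 (Subtype.ext hc)) (fun hc => hy1 (Subtype.ext hc))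
        (congrArg Subtype.val hx2) (congrArg Subtype.val hy2)
    have h8 : (x * y) ^ 8 = 1 := by
      have := pow_card_eq_one' (G := ↥(P : Subgroup G)) (x := x * y)
      rwa [hc] at this
    have hxy : x * y = 1 := eq_one_of_pow_coprime h3 h8 (by norm_num)
    have : x = y := by
      have h4 : x = y⁻¹ := eq_inv_of_mul_eq_one_left hxy
      have h5 : y⁻¹ = y := by
        rw [inv_eq_iff_mul_eq_one, ← pow_two, hy2]
      rw [h4, h5]
    rw [this]
  rcases Cfsg.Agent.S0016.result 2 hP huniq with hcyc | ⟨_, n, ⟨e⟩⟩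
  · exfalso
    obtain ⟨g, hg⟩ := hcyc.exists_ofOrder_eq_natCard
    rw [hc] at hg
    rcases h.pow g.1 with h1 | h1
    · have : g ^ 3 = 1 := Subtype.ext h1
      have := orderOf_dvd_of_pow_eq_one this
      rw [hg] at this
      omega
    · have : g ^ 4 = 1 := Subtype.ext h1
      have := orderOf_dvd_of_pow_eq_one this
      rw [hg] at this
      omega
  · have h1 := Nat.card_congr e.toEquiv
    rw [hc, Nat.card_eq_fintype_card, QuaternionGroup.card] at h1
    have hn : n = 1 := by
      have h2 : 2 ^ n = 2 ^ 1 := by omega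
      exact Nat.pow_right_injective (le_refl 2) h2
    subst hn
    exact ⟨e⟩

end Cfsg.Agent.Lib.Helper30
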