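import Cfsg.Agent.S1550
import Cfsg.Agent.Lib.Helper27.Flag
import Cfsg.Agent.Lib.Helper26.M24Sets

/-!
# Sextets: action of `M24`, transitivity, order of the stabiliser, the kernel on the six tetrads
-/

set_option autoImplicit false

namespace Cfsg.Agent.Lib.Helper30

open Cfsg Cfsg.Agent.Lib.Helper27
open scoped Pointwise

theorem smul_mem_sextets {g : Equiv.Perm GolayPt} (hg : g ∈ M24) {S : Finset (Finset GolayPt)}
    (hS : S ∈ sextets) : g • S ∈ sextets := by
  obtain ⟨h6, h4, hu⟩ := hS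
  refine ⟨by rw [Finset.card_smul_finset, h6], ?_, ?_⟩
  · intro t ht
    obtain ⟨t', ht', rfl⟩ := Finset.mem_smul_finset.mp ht
    rw [Finset.card_smul_finset]; exact h4 t' ht'
  · intro t ht u hu' hne
    obtain ⟨t', ht', rfl⟩ := Finset.mem_smul_finset.mp ht
    obtain ⟨u', hu'', rfl⟩ := Finset.mem_smul_finset.mp hu'
    rw [← Finset.smul_finset_union]
    exact smul_mem_octads hg (hu t' ht' u' hu'' (fun h => hne (by rw [h])))

theorem sextet_eq_of_mem {S S' : Finset (Finset GolayPt)} (hS : S ∈ sextets) (hS' : S' ∈ sextets)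
    {t : Finset GolayPt} (ht : t ∈ S) (ht' : t ∈ S') : S = S' :=
  (Cfsg.Agent.S1550.result.1 t (hS.2.1 t ht)).unique ⟨hS, ht⟩ ⟨hS', ht'⟩

theorem sextets_transitive {S S' : Finset (Finset GolayPt)} (hS : S ∈ sextets) (hS' : S' ∈ sextets) :
    ∃ g ∈ M24, g • S = S' := by
  obtain ⟨t, ht⟩ : S.Nonempty := by rw [← Finset.card_pos, hS.1]; norm_num
  obtain ⟨t', ht'⟩ : S'.Nonempty := by rw [← Finset.card_pos, hS'.1]; norm_num
  have h4 := hS.2.1 t ht
  have h4' := hS'.2.1 t' ht'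
  obtain ⟨g, hg, h1, _⟩ := Cfsg.Agent.Lib.Helper26.exists_map_pair (s := t) (y := t) (s' := t')
    (y' := t') (by simp [h4, h4']) (by rw [h4, h4']) (by rw [h4, h4']) (by simp [h4])
  refine ⟨g, hg, sextet_eq_of_mem (smul_mem_sextets hg hS) hS' (t := t') ?_ ht'⟩
  rw [← h1]; exact Finset.smul_mem_smul_finset ht

/-- the stabiliser of a sextet, inside `Equiv.Perm GolayPt`. -/
abbrev sexStab (S : Finset (Finset GolayPt)) : Subgroup (Equiv.Perm GolayPt) :=
  M24 ⊓ MulAction.stabilizer (Equiv.Perm GolayPt) S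

theorem card_sexStab {S : Finset (Finset GolayPt)} (hS : S ∈ sextets) :
    Nat.card (sexStab S) = 138240 := by
  have h := card_step (G := Equiv.Perm GolayPt) M24 S sextets
    (fun y hy => sextets_transitive hS hy) (fun g hg => smul_mem_sextets hg hS)
  rw [card_M24, Cfsg.Agent.S1550.result.2] at h
  change 244823040 = 1771 * Nat.card (sexStab S) at h
  omega

/-- the subgroup of `M24` fixing each member of `S`. -/
def sexKer (S : Finset (Finset GolayPt)) : Subgroup (Equiv.Perm GolayPt) where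
  carrier := {g | g ∈ M24 ∧ ∀ t ∈ S, g • t = t}
  one_mem' := ⟨M24.one_mem, fun _ _ => one_smul _ _⟩
  mul_mem' := fun {a b} ha hb =>
    ⟨M24.mul_mem ha.1 hb.1, fun t ht => by rw [mul_smul, hb.2 t ht, ha.2 t ht]⟩
  inv_mem' := fun {a} ha => ⟨M24.inv_mem ha.1, fun t ht => by rw [inv_smul_eq_iff, ha.2 t ht]⟩

theorem mem_sexKer {S : Finset (Finset GolayPt)} {g : Equiv.Perm GolayPt} :
    g ∈ sexKer S ↔ g ∈ M24 ∧ ∀ t ∈ S, g • t = t := Iff.rfl

theorem smul_eq_of_mem_sexKer {S : Finset (Finset GolayPt)} {g : Equiv.Perm GolayPt}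
    (hg : g ∈ sexKer S) : g • S = S := by
  ext t
  rw [Finset.mem_smul_finset]
  constructor
  · rintro ⟨u, hu, rfl⟩
    rw [hg.2 u hu]; exact hu
  · intro ht
    exact ⟨t, ht, hg.2 t ht⟩

theorem sexKer_le_sexStab (S : Finset (Finset GolayPt)) : sexKer S ≤ sexStab S :=
  fun _ hg => ⟨hg.1, smul_eq_of_mem_sexKer hg⟩

theorem conj_mem_sexKer {S : Finset (Finset GolayPt)} {g k : Equiv.Perm GolayPt} (hg : g ∈ M24)
    (hk : k ∈ sexKer S) : g * k * g⁻¹ ∈ sexKer (g • S) := by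
  refine ⟨M24.mul_mem (M24.mul_mem hg hk.1) (M24.inv_mem hg), ?_⟩
  intro t ht
  obtain ⟨u, hu, rfl⟩ := Finset.mem_smul_finset.mp ht
  rw [mul_smul, mul_smul, inv_smul_smul, hk.2 u hu]

/-- conjugation by `g ∈ M24` as a bijection between the kernels. -/
def sexKerConj {S : Finset (Finset GolayPt)} {g : Equiv.Perm GolayPt} (hg : g ∈ M24) :
    ↥(sexKer S) ≃ ↥(sexKer (g • S)) where
  toFun k := ⟨g * k.1 * g⁻¹, conj_mem_sexKer hg k.2⟩
  invFun k := ⟨g⁻¹ * k.1 * g, by
    have := conj_mem_sexKer (M24.inv_mem hg) k.2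
    rwa [inv_smul_smul, inv_inv] at this⟩
  left_inv k := by apply Subtype.ext; simp only; group
  right_inv k := by apply Subtype.ext; simp only; group

end Cfsg.Agent.Lib.Helper30
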