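import Cfsg.Agent.Lib.Helper30.SextetStd
import Cfsg.Agent.Lib.Helper27.OctadPointwise

/-!
# The kernel of the standard sextet: the list of its 192 elements, its 64 elements of square one
-/

set_option autoImplicit false

namespace Cfsg.Agent.Lib.Helper30

open Cfsg Cfsg.Agent.Lib.Helper27
open scoped Pointwise

def invCodes : List ℕ := [
  984818244535754528103549039458486304, 976448692869377735270425038196672544, 972512676110088067912772961567868960,
  961365507626256404119956257276790816, 976934804572108675034832543981668384, 984202951082164080105044112956360736,
  960884477435128931241433760505432096, 973122887587861701392823884636653600, 984724508489452699215480746259449888,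
  976420838754479978627774237199763488, 972560815420533050926679905878345760, 961438956620049001677386430328277024,
  984235865005994746954145143334668320, 973054518210042674313238929715267616, 960831283963798152912375878980765728,
  977023451795203591179182037798520864, 59291320357593944927018385712546530, 70351105155508323366877919011341026,
  63098155598130777866857538834072290, 47027549764763033801098060336923362, 46999706481866609773835742131356386,
  59197602570933677232925012014498530, 63171595616884047768281205928198882, 70399228063273750146191920654811874,
  62563919208128639077930020080091874, 47602323197725890978489344939164386, 58708955334971165046248774589121250,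
  70892934527919042185996746700784354, 70961312958146288193683039871075042, 47513657792358304912259763912868578,
  62617129159507864913675676563309282, 58676030656508056853854093711016674, 21553437447306391113730797094863959,
  28826665701071936886111872293045335, 5495518024292395953547195890304087, 17739009920735306807106826245014615,
  17184519787777121035013027289728087, 6057601526503618116306465909212247, 29340620570662517957029049942508631,
  21031891374900343699909455052375127, 17131322563941782780614511264466007, 5989235823820259689967313196876887,
  29429271468893102754624345968411735, 21064801546226450623669850930086999, 17665557174438149324336018692932695,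
  28854523491105362182008475499005015, 21647169741103660076458455793304663, 5447382388983081592886053788877911,
  111943941958064166877680061588659201, 104711250050885010830356261031599105, 100734696945008953747646909761674241,
  88531741395152432619144554048084993, 88564669826120100736879869426785281, 100823358675240871160630688578919425,
  104642867945522096169424165652257793, 111890735759189500967275039606037505, 112424983097229755092343687492459521,
  89147023513860308921034189289610241, 104101027238228805653690046702214145, 100248596190316129319380533109120001,
  104149153821129901086249850554735617, 112498419363478465068426720085990401, 89053301974695481301600181090966529,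
  100220756582555373945364017112603649]

def ordCodes : List ℕ := [
  976407453246317410417703175176946690, 972554985085438564210745283889431554, 984730288765199910941993611765580802,
  961452393580250833805897797384373250, 976948186344841724045049627893335042, 960871044210657595388801541596546050,
  973128714237996665546949957675156482, 984197174491070691497831756719490050, 984250328386525346977689119818417154,
  977016595375853843786257736195539970, 973040027440234534682868840942175234, 960838169938811063928576034654553090,
  976455552980638328688223281759060994, 961358617959033883612145834690806786, 972527170622881513115307185526998018,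
  984803777412542108341060122386564098, 976935469440569946427726375860764737, 960878742178369961985634462804148289,
  973121149658076369790816648589410369, 984209759864417955904179982171570241, 984722655212455190242942046462705729,
  972567739163197169138287573865758785, 961439743876560502812507128215011393, 976414980722868804463551068493742145,
  977029323400057222360963635570901057, 984237731893710085185596503053402177, 960830483097831834190455366850019393,
  973047580892981701841065988820402241, 961371256506978186241646457339281473, 976448014340632676013292783797829697,
  984811422128274385044551653187420225, 972514427701312027343883232992591937, 58723421568564731611539615641033792,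
  47595462196545319713515265581440064, 70878439125506768357904213371051072, 62570807985431206310204373520145472,
  47527044190441957774151084272704576, 58670251270378591519894881683299392, 62603693089227092865344801194826816,
  70967144182858496730531548688997440, 59276857866983322750650045308197952, 47034407073731634391220238243978304,
  70365596815236416272784276646386752, 63091270512736695476215892246912064, 59203378272105981188317309630372928,
  70393400523217725911885156212759616, 63185027951737661799999338292141120, 46986323819515814371065204457299008,
  62563135686592826993580220835366935, 70886007127648126195713012429948951, 47608177535463599580242061265668119,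
  58710812383211030853352759123970071, 70352839428895783008697884615018519, 59284515345373500143959138539571223,
  47026881203637222664222438774179863, 63103894588656510354938939337508887, 63172392712816935474125162588702743,
  46993838533410850552241481374533655, 59195731949451575769191482921617431, 70406169072999262362346584661329943,
  58682849329012510862080647912065047, 62611376507543725957420125190719511, 47514339978710161948068018023139351,
  70959565060795794325043287397861399, 5974730001682026291034383594916577, 17138223204437970021661911151643361,
  21079257309320747292447628907875041, 29422422280132841172750646255913697, 29354017001627649457647037848160993,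
  6063420551951085181220000222350049, 21026099738732777425063467851123425, 17171093801151187094360620135811809,
  5461884519211575771589463973071585, 28861368936879211387073617483827937, 17658660276622675017589136852290273,
  21632717670220079703935367269354209, 28813272955065221142658010796165857, 5489702734275554893132062229957345,
  21559225347744567917342058690546401, 17752432222706310823814301588032225, 21551580593099219982641885824015394,
  5502445617386859440428389648948258, 17739793636303833671540501907627042, 28820811556157795885025418608237602,
  29341288938964540132309524355275810, 17178780603218895127776634876779554, 6055867060292389616960156309445666,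
  21038696193088315167882513469725730, 21640351261422974925758312160386082, 28853841498785998565355146726300706,
  5449130480366048776612061589756962, 17671310019226077242186650643553314, 5982294620062052797797509354413090,
  21066671974885004590805853963213858, 29435139223316147196134796879387682, 17130525275185327474104358534306850,
  88525954384333109012731368472412215, 104717066230520680516329704062550071, 111930520546013116136508655391572023,
  100748090580935647338276607053889591, 111897631767083915193841429759066167, 104628364925675880169806868639055927,
  100816512339545937303745288257077303, 88579121007385934716849304472322103, 104143333905762480745800047379644471,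
  112511844460485570383520618153279543, 89059092720943069729270532212817975, 100207359261971389247548152902877239,
  89132568640687096904076469932818487, 112418083346351289672210374150225975, 100255446268694137293807686584008759,
  104115533950288099132803667707723831, 100829216512819551905698931947374304, 111889948309854210870559261141272288,
  104635944008825504642730242337179360, 88566522910293840851892158655399648, 104709498266837503902648530119067360,
  100735375280930445404112901518821088, 111938192883309669975905985108281056, 88538563608599881002126867055150816,
  89140214924429980618495846134154976, 100247931515887572706570511075870432, 104102765362046831931712422585403104,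
  112430718546812291948809181263398624, 100214885170525531725177566490199776, 89051435281012616385235010127857376,
  112499220423477277209502224126248672, 104156091331014642415949135445690080]

/-- fingerprint of a code: the images of the points of index 0, 1, 3, 4. -/
def fpCode (c : ℕ) : ℕ :=
  Nat.add (ent c 0) (Nat.mul 32 (Nat.add (ent c 1) (Nat.mul 32 (Nat.add (ent c 3)
    (Nat.mul 32 (ent c 4))))))

theorem ent_eq_of_permOf_eq {c c' : ℕ} (hv : validCode c = true) (hv' : validCode c' = true)
    (h : permOf c = permOf c') {i : ℕ} (hi : i < 24) : ent c i = ent c' i := by
  have h1 := idx_permOf_apply hv (pt i)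
  rw [h, idx_permOf_apply hv', idx_pt hi] at h1
  exact h1.symm

theorem fpCode_eq_of_permOf_eq {c c' : ℕ} (hv : validCode c = true) (hv' : validCode c' = true)
    (h : permOf c = permOf c') : fpCode c = fpCode c' := by
  unfold fpCode
  rw [ent_eq_of_permOf_eq hv hv' h (i := 0) (by norm_num),
    ent_eq_of_permOf_eq hv hv' h (i := 1) (by norm_num),
    ent_eq_of_permOf_eq hv hv' h (i := 3) (by norm_num),
    ent_eq_of_permOf_eq hv hv' h (i := 4) (by norm_num)]

theorem kerCodes_check : ∀ c ∈ invCodes ++ ordCodes, checkFix sexMasks c = true := by
  rw [← allList_iff]; decide +kernel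

theorem kerCodes_nodup : ((invCodes ++ ordCodes).map fpCode).Nodup := by decide +kernel

theorem kerCodes_inj : ∀ c ∈ invCodes ++ ordCodes, ∀ c' ∈ invCodes ++ ordCodes,
    permOf c = permOf c' → c = c' := by
  intro c hc c' hc' h
  exact List.inj_on_of_nodup_map kerCodes_nodup hc hc'
    (fpCode_eq_of_permOf_eq (valid_of_checkFix (kerCodes_check c hc))
      (valid_of_checkFix (kerCodes_check c' hc')) h)

theorem permOf_mem_sexKer {c : ℕ} (hc : c ∈ invCodes ++ ordCodes) :
    permOf c ∈ sexKer stdSextet := by
  rw [sexKer_std_eq]; exact permOf_mem_fixer (kerCodes_check c hc)

theorem exists_code_of_mem_sexKer {g : Equiv.Perm GolayPt} (hg : g ∈ sexKer stdSextet) :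
    ∃ c ∈ invCodes ++ ordCodes, permOf c = g := by
  classical
  have hnd : ((invCodes ++ ordCodes).map permOf).Nodup :=
    List.Nodup.map_on kerCodes_inj (List.Nodup.of_map _ kerCodes_nodup)
  have hcard : ((invCodes ++ ordCodes).map permOf).toFinset.card = 192 := by
    rw [List.toFinset_card_of_nodup hnd, List.length_map]; rfl
  have hsub : ((((invCodes ++ ordCodes).map permOf).toFinset : Finset (Equiv.Perm GolayPt)) :
      Set (Equiv.Perm GolayPt)) ⊆ (sexKer stdSextet : Set (Equiv.Perm GolayPt)) := by
    intro x hx
    rw [Finset.mem_coe, List.mem_toFinset, List.mem_map] at hx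
    obtain ⟨c, hc, rfl⟩ := hx
    exact permOf_mem_sexKer hc
  have hK : (sexKer stdSextet : Set (Equiv.Perm GolayPt)).ncard = 192 := by
    rw [← card_sexKer_std]; rfl
  have heq := Set.eq_of_subset_of_ncard_le hsub (by rw [hK, Set.ncard_coe_finset, hcard])
    (Set.toFinite _)
  have : g ∈ ((((invCodes ++ ordCodes).map permOf).toFinset : Finset (Equiv.Perm GolayPt)) :
      Set (Equiv.Perm GolayPt)) := by rw [heq]; exact hg
  rw [Finset.mem_coe, List.mem_toFinset, List.mem_map] at this
  exact this

theorem checkInvol_of_mul_self {c : ℕ} (hv : validCode c = true) (h : permOf c * permOf c = 1) :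
    checkInvol c = true := by
  unfold checkInvol
  rw [allBelow_iff]
  intro i hi
  rw [Nat.beq_eq]
  have h1 : permOf c (permOf c (pt i)) = pt i := by
    rw [← Equiv.Perm.mul_apply, h]; rfl
  have h2 := congrArg idx h1
  rwa [idx_permOf_apply hv, idx_permOf_apply hv, idx_pt hi] at h2

theorem invCodes_invol : ∀ c ∈ invCodes, checkInvol c = true := by
  rw [← allList_iff]; decide +kernel

theorem ordCodes_not_invol : ∀ c ∈ ordCodes, checkInvol c = false := by
  have : ∀ c ∈ ordCodes, (!checkInvol c) = true := by
    rw [← allList_iff]; decide +kernel
  intro c hc
  simpa using this c hc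

/-- commutation test on codes. -/
def checkComm (a b : ℕ) : Bool :=
  allBelow (fun i => Nat.beq (ent a (ent b i)) (ent b (ent a i))) 24

theorem permOf_comm {a b : ℕ} (ha : validCode a = true) (hb : validCode b = true)
    (h : checkComm a b = true) : permOf a * permOf b = permOf b * permOf a := by
  apply Equiv.ext
  intro p
  apply idx_injective
  rw [Equiv.Perm.mul_apply, Equiv.Perm.mul_apply, idx_permOf_apply ha, idx_permOf_apply hb,
    idx_permOf_apply hb, idx_permOf_apply ha]
  have := (allBelow_iff _ _).1 h _ (idx_lt p)
  rwa [Nat.beq_eq] at this

theorem invCodes_comm : ∀ a ∈ invCodes, ∀ b ∈ invCodes, checkComm a b = true := by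
  have : allList (fun a => allList (fun b => checkComm a b) invCodes) invCodes = true := by
    decide +kernel
  rw [allList_iff] at this
  intro a ha
  exact (allList_iff _ _).1 (this a ha)

theorem exists_invCode {g : Equiv.Perm GolayPt} (hg : g ∈ sexKer stdSextet) (h : g * g = 1) :
    ∃ c ∈ invCodes, permOf c = g := by
  obtain ⟨c, hc, rfl⟩ := exists_code_of_mem_sexKer hg
  refine ⟨c, ?_, rfl⟩
  rcases List.mem_append.mp hc with h1 | h1
  · exact h1
  · have h2 := checkInvol_of_mul_self (valid_of_checkFix (kerCodes_check c hc)) h
    rw [ordCodes_not_invol c h1] at h2
    exact absurd h2 (by decide)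

theorem std_comm {x y : Equiv.Perm GolayPt} (hx : x ∈ sexKer stdSextet)
    (hy : y ∈ sexKer stdSextet) (hx2 : x * x = 1) (hy2 : y * y = 1) : x * y = y * x := by
  obtain ⟨a, ha, rfl⟩ := exists_invCode hx hx2
  obtain ⟨b, hb, rfl⟩ := exists_invCode hy hy2
  exact permOf_comm (valid_of_checkFix (kerCodes_check a (List.mem_append_left _ ha)))
    (valid_of_checkFix (kerCodes_check b (List.mem_append_left _ hb))) (invCodes_comm a ha b hb)

theorem std_card_sq : Nat.card {x : Equiv.Perm GolayPt // x ∈ sexKer stdSextet ∧ x * x = 1} = 64 := by
  classical
  have hnd : (invCodes.map permOf).Nodup :=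
    List.Nodup.map_on (fun a ha b hb h => kerCodes_inj a (List.mem_append_left _ ha) b
      (List.mem_append_left _ hb) h)
      (List.Nodup.of_append_left (List.Nodup.of_map _ kerCodes_nodup))
  have hcard : (invCodes.map permOf).toFinset.card = 64 := by
    rw [List.toFinset_card_of_nodup hnd, List.length_map]; rfl
  rw [← hcard, ← Fintype.card_coe, ← Nat.card_eq_fintype_card]
  apply Nat.card_congr
  apply Equiv.subtypeEquivRight
  intro x
  rw [List.mem_toFinset, List.mem_map]
  constructor
  · rintro ⟨h1, h2⟩
    exact exists_invCode h1 h2
  · rintro ⟨c, hc, rfl⟩
    have hc' : c ∈ invCodes ++ ordCodes := List.mem_append_left _ hc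
    exact ⟨permOf_mem_sexKer hc',
      permOf_mul_self (valid_of_checkFix (kerCodes_check c hc')) (invCodes_invol c hc)⟩

/-! ### transport to an arbitrary sextet -/

theorem card_sexKer {S : Finset (Finset GolayPt)} (hS : S ∈ sextets) :
    Nat.card (sexKer S) = 192 := by
  obtain ⟨g, hg, rfl⟩ := sextets_transitive stdSextet_mem hS
  rw [← card_sexKer_std]
  exact Nat.card_congr (sexKerConj hg).symm

theorem inv_conj_mem_sexKer {S : Finset (Finset GolayPt)} {g k : Equiv.Perm GolayPt} (hg : g ∈ M24)
    (hk : k ∈ sexKer (g • S)) : g⁻¹ * k * g ∈ sexKer S := by
  have := conj_mem_sexKer (M24.inv_mem hg) hk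
  rwa [inv_smul_smul, inv_inv] at this

theorem sexKer_comm {S : Finset (Finset GolayPt)} (hS : S ∈ sextets) {x y : Equiv.Perm GolayPt}
    (hx : x ∈ sexKer S) (hy : y ∈ sexKer S) (hx2 : x * x = 1) (hy2 : y * y = 1) :
    x * y = y * x := by
  obtain ⟨g, hg, rfl⟩ := sextets_transitive stdSextet_mem hS
  have h := std_comm (inv_conj_mem_sexKer hg hx) (inv_conj_mem_sexKer hg hy)
    (by calc g⁻¹ * x * g * (g⁻¹ * x * g) = g⁻¹ * (x * x) * g := by group
          _ = 1 := by rw [hx2]; group)
    (by calc g⁻¹ * y * g * (g⁻¹ * y * g) = g⁻¹ * (y * y) * g := by group
          _ = 1 := by rw [hy2]; group)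
  calc x * y = g * (g⁻¹ * x * g * (g⁻¹ * y * g)) * g⁻¹ := by group
    _ = g * (g⁻¹ * y * g * (g⁻¹ * x * g)) * g⁻¹ := by rw [h]
    _ = y * x := by group

theorem card_sexKer_sq {S : Finset (Finset GolayPt)} (hS : S ∈ sextets) :
    Nat.card {x : Equiv.Perm GolayPt // x ∈ sexKer S ∧ x * x = 1} = 64 := by
  obtain ⟨g, hg, rfl⟩ := sextets_transitive stdSextet_mem hS
  rw [← std_card_sq]
  apply Nat.card_congr
  refine ⟨fun x => ⟨g⁻¹ * x.1 * g, inv_conj_mem_sexKer hg x.2.1, ?_⟩,
    fun x => ⟨g * x.1 * g⁻¹, conj_mem_sexKer hg x.2.1, ?_⟩, ?_, ?_⟩
  · calc g⁻¹ * x.1 * g * (g⁻¹ * x.1 * g) = g⁻¹ * (x.1 * x.1) * g := by group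
      _ = 1 := by rw [x.2.2]; group
  · calc g * x.1 * g⁻¹ * (g * x.1 * g⁻¹) = g * (x.1 * x.1) * g⁻¹ := by group
      _ = 1 := by rw [x.2.2]; group
  · intro x; apply Subtype.ext; simp only; group
  · intro x; apply Subtype.ext; simp only; group

/-- the elements of square one in the kernel of a sextet form a subgroup. -/
def sexSq {S : Finset (Finset GolayPt)} (hS : S ∈ sextets) : Subgroup (Equiv.Perm GolayPt) where
  carrier := {x | x ∈ sexKer S ∧ x * x = 1}
  one_mem' := ⟨(sexKer S).one_mem, one_mul 1⟩
  mul_mem' := fun {a b} ha hb => ⟨(sexKer S).mul_mem ha.1 hb.1, by
    calc a * b * (a * b) = a * (b * a) * b := by group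
      _ = a * (a * b) * b := by rw [sexKer_comm hS ha.1 hb.1 ha.2 hb.2]
      _ = (a * a) * (b * b) := by group
      _ = 1 := by rw [ha.2, hb.2, one_mul]⟩
  inv_mem' := fun {a} ha => ⟨(sexKer S).inv_mem ha.1, by
    rw [← mul_inv_rev, ha.2, inv_one]⟩

theorem mem_sexSq {S : Finset (Finset GolayPt)} (hS : S ∈ sextets) {x : Equiv.Perm GolayPt} :
    x ∈ sexSq hS ↔ x ∈ sexKer S ∧ x * x = 1 := Iff.rfl

theorem card_sexSq {S : Finset (Finset GolayPt)} (hS : S ∈ sextets) :
    Nat.card (sexSq hS) = 64 := card_sexKer_sq hS

/-! ### the action on the six tetrads -/

theorem smul_mem_iff_of_smul_eq {g : Equiv.Perm GolayPt} {S : Finset (Finset GolayPt)}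
    (h : g • S = S) (t : Finset GolayPt) : g • t ∈ S ↔ t ∈ S := by
  conv_lhs => rw [← h]
  exact Finset.smul_mem_smul_finset_iff g

/-- the action of the sextet stabiliser on the six tetrads. -/
def sexRes (S : Finset (Finset GolayPt)) : ↥(sexStab S) →* Equiv.Perm ↥S where
  toFun g := Equiv.Perm.subtypePerm (MulAction.toPerm g.1) (smul_mem_iff_of_smul_eq g.2.2)
  map_one' := by
    apply Equiv.ext; intro x; apply Subtype.ext
    exact one_smul (Equiv.Perm GolayPt) (x : Finset GolayPt)
  map_mul' a b := by
    apply Equiv.ext; intro x; apply Subtype.ext
    exact mul_smul a.1 b.1 (x : Finset GolayPt)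

theorem sexRes_apply (S : Finset (Finset GolayPt)) (g : ↥(sexStab S)) (t : ↥S) :
    ((sexRes S g t : ↥S) : Finset GolayPt) = g.1 • (t : Finset GolayPt) := rfl

theorem mem_ker_sexRes {S : Finset (Finset GolayPt)} (g : ↥(sexStab S)) :
    g ∈ (sexRes S).ker ↔ g.1 ∈ sexKer S := by
  rw [MonoidHom.mem_ker, mem_sexKer]
  constructor
  · intro h
    refine ⟨g.2.1, fun t ht => ?_⟩
    have := congrArg (fun e : Equiv.Perm ↥S => ((e ⟨t, ht⟩ : ↥S) : Finset GolayPt)) h
    exact this
  · intro h
    apply Equiv.ext
    intro t
    apply Subtype.ext
    exact h.2 t t.2

theorem card_ker_sexRes {S : Finset (Finset GolayPt)} (hS : S ∈ sextets) :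
    Nat.card (sexRes S).ker = 192 := by
  rw [← card_sexKer hS]
  apply Nat.card_congr
  exact ⟨fun g => ⟨g.1.1, (mem_ker_sexRes g.1).mp g.2⟩,
    fun g => ⟨⟨g.1, sexKer_le_sexStab S g.2⟩, (mem_ker_sexRes _).mpr g.2⟩,
    fun g => rfl, fun g => rfl⟩

theorem sexRes_surjective {S : Finset (Finset GolayPt)} (hS : S ∈ sextets) :
    Function.Surjective (sexRes S) := by
  rw [← MonoidHom.range_eq_top]
  apply Subgroup.eq_top_of_card_eq
  have h1 := (sexRes S).ker.card_mul_index
  rw [Subgroup.index_ker, card_ker_sexRes hS, card_sexStab hS] at h1
  have h2 : Nat.card (Equiv.Perm ↥S) = 720 := by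
    rw [Nat.card_eq_fintype_card, Fintype.card_perm, Fintype.card_coe, hS.1]
    rfl
  omega

end Cfsg.Agent.Lib.Helper30
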