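import Cfsg.Agent.Lib.Helper30.Sextet

/-!
# The standard sextet: order of the kernel on the six tetrads, explicit list of its elements
-/

set_option autoImplicit false

namespace Cfsg.Agent.Lib.Helper30

open Cfsg Cfsg.Agent.Lib.Helper27
open scoped Pointwise

/-- masks of the six tetrads of the standard sextet. -/
def sexMasks : List ℕ := [8388615, 147496, 268544, 1082880, 2621632, 4268048]

/-- the standard sextet. -/
def stdSextet : Finset (Finset GolayPt) := (sexMasks.map unmask).toFinset

theorem mem_stdSextet {t : Finset GolayPt} : t ∈ stdSextet ↔ ∃ m ∈ sexMasks, unmask m = t := by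
  unfold stdSextet
  rw [List.mem_toFinset, List.mem_map]

theorem sexMasks_lt : ∀ m ∈ sexMasks, m < 2 ^ 24 := by decide

theorem nodup_map_unmask {l : List ℕ} (hl : l.Nodup) (hlt : ∀ m ∈ l, m < 2 ^ 24) :
    (l.map unmask).Nodup :=
  List.Nodup.map_on (fun a ha b hb h => unmask_injOn (hlt a ha) (hlt b hb) h) hl

theorem stdSextet_mem : stdSextet ∈ sextets := by
  refine ⟨?_, ?_, ?_⟩
  · unfold stdSextet
    rw [List.toFinset_card_of_nodup (nodup_map_unmask (by decide) sexMasks_lt)]
    rfl
  · intro t ht
    obtain ⟨m, hm, rfl⟩ := mem_stdSextet.mp ht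
    rw [card_unmask]
    have : ∀ m ∈ sexMasks, pc m = 4 := by decide +kernel
    exact this m hm
  · intro t ht u hu hne
    obtain ⟨m, hm, rfl⟩ := mem_stdSextet.mp ht
    obtain ⟨m', hm', rfl⟩ := mem_stdSextet.mp hu
    have hmm : m ≠ m' := fun h => hne (by rw [h])
    have key : ∀ m ∈ sexMasks, ∀ m' ∈ sexMasks, m ≠ m' →
        isCode (m ||| m') = true ∧ pc (m ||| m') = 8 := by decide +kernel
    rw [← unmask_or]
    exact unmask_mem_octads (key m hm m' hm' hmm).1 (key m hm m' hm' hmm).2

/-- elements of `M24` stabilising the standard sextet and fixing the tetrads with masks in `L`. -/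
def Hc (L : List ℕ) : Subgroup (Equiv.Perm GolayPt) :=
  fixer L ⊓ MulAction.stabilizer (Equiv.Perm GolayPt) stdSextet

theorem Hc_step (L : List ℕ) (m : ℕ) (R codes : List ℕ)
    (hall : ∀ x ∈ sexMasks, x ∈ L ∨ x ∈ m :: R) (hsub : ∀ x ∈ m :: R, x ∈ sexMasks)
    (hnd : (m :: R).Nodup) (hmL : m ∉ L) (hL : ∀ x ∈ L, x < 2 ^ 24)
    (hc : ∀ r ∈ R, ∃ c ∈ codes, checkFix L c = true ∧ permMask c m = r) :
    Nat.card (Hc L) = (R.length + 1) * Nat.card (Hc (m :: L)) := by
  have hm : m ∈ sexMasks := hsub m List.mem_cons_self
  have hmlt : m < 2 ^ 24 := sexMasks_lt m hm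
  have hlt : ∀ x ∈ m :: R, x < 2 ^ 24 := fun x hx => sexMasks_lt x (hsub x hx)
  have h := card_step (G := Equiv.Perm GolayPt) (Hc L) (unmask m)
    ((((m :: R).map unmask).toFinset : Finset (Finset GolayPt)) : Set (Finset GolayPt)) (by
      intro y hy
      rw [Finset.mem_coe, List.mem_toFinset, List.mem_map] at hy
      obtain ⟨r, hr, rfl⟩ := hy
      rcases List.mem_cons.mp hr with rfl | hrR
      · exact ⟨1, (Hc L).one_mem, one_smul _ _⟩
      · obtain ⟨c, _, hc1, hc2⟩ := hc r hrR
        have hv := valid_of_checkFix hc1
        have hmem := permOf_mem_fixer hc1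
        have hsm : permOf c • unmask m = unmask r := by
          rw [smul_unmask_permOf hv hmlt, hc2]
        refine ⟨permOf c, ⟨hmem, ?_⟩, hsm⟩
        change permOf c • stdSextet = stdSextet
        apply sextet_eq_of_mem (smul_mem_sextets hmem.1 stdSextet_mem) stdSextet_mem (t := unmask r)
        · rw [← hsm]
          exact Finset.smul_mem_smul_finset (mem_stdSextet.mpr ⟨m, hm, rfl⟩)
        · exact mem_stdSextet.mpr ⟨r, hsub r hr, rfl⟩) (by
      intro g hg
      rw [Finset.mem_coe, List.mem_toFinset, List.mem_map]
      have h1 : g • unmask m ∈ stdSextet := by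
        have h2 : g • stdSextet = stdSextet := hg.2
        rw [← h2]
        exact Finset.smul_mem_smul_finset (mem_stdSextet.mpr ⟨m, hm, rfl⟩)
      obtain ⟨x, hx, hxe⟩ := mem_stdSextet.mp h1
      rcases hall x hx with hxL | hxR
      · exfalso
        have h3 : g • unmask x = unmask x := hg.1.2 x hxL
        have h4 : unmask x = unmask m := by
          apply MulAction.injective g
          change g • unmask x = g • unmask m
          rw [h3, hxe]
        exact hmL ((unmask_injOn (hL x hxL) hmlt h4) ▸ hxL)
      · exact ⟨x, hxR, hxe⟩)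
  rw [Set.ncard_coe_finset, List.toFinset_card_of_nodup (nodup_map_unmask hnd hlt), List.length_map,
    List.length_cons] at h
  rw [h]
  have he : Hc L ⊓ MulAction.stabilizer (Equiv.Perm GolayPt) (unmask m) = Hc (m :: L) := by
    ext g
    simp only [Hc, Subgroup.mem_inf, mem_fixer_cons, MulAction.mem_stabilizer_iff]
    tauto
  rw [he]

def chainCodes0 : List ℕ := [
  150877875932460270976377912777086417, 354684426566709145456411668420506187, 847060811244913001640027509012053321,
  795774014556426627981166481008776391, 177885627267124785779611594325046992]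

def chainCodes1 : List ℕ := [
  976373774844191796785691538093377568, 983298441375648284054396014667892768, 973972270124890055923041342091593760,
  969068320379631266033040373197768736]

def chainCodes2 : List ℕ := [
  972606645568131968584696805283956768, 976531636853126291160407323722221600, 979121071158219704299181131031480352]

def chainCodes3 : List ℕ := [
  967738580936480664927891663448279072, 983271302155371035984055114495264800]

def chainCodes4 : List ℕ := [
  983317099321331788540291577155847232]

theorem card_Hc_nil : Nat.card (Hc []) = 138240 := by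
  have : Hc [] = sexStab stdSextet := by unfold Hc; rw [fixer_nil]
  rw [this]; exact card_sexStab stdSextet_mem

theorem card_Hc_all : Nat.card (Hc [4268048, 2621632, 1082880, 268544, 147496, 8388615]) = 192 := by
  have h0 := Hc_step [] 8388615 [147496, 268544, 1082880, 2621632, 4268048] chainCodes0
    (by decide) (by decide) (by decide) (by decide) (by decide) (by decide +kernel)
  have h1 := Hc_step [8388615] 147496 [268544, 1082880, 2621632, 4268048] chainCodes1
    (by decide) (by decide) (by decide) (by decide) (by decide) (by decide +kernel)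
  have h2 := Hc_step [147496, 8388615] 268544 [1082880, 2621632, 4268048] chainCodes2
    (by decide) (by decide) (by decide) (by decide) (by decide) (by decide +kernel)
  have h3 := Hc_step [268544, 147496, 8388615] 1082880 [2621632, 4268048] chainCodes3
    (by decide) (by decide) (by decide) (by decide) (by decide) (by decide +kernel)
  have h4 := Hc_step [1082880, 268544, 147496, 8388615] 2621632 [4268048] chainCodes4
    (by decide) (by decide) (by decide) (by decide) (by decide) (by decide +kernel)
  have h5 := Hc_step [2621632, 1082880, 268544, 147496, 8388615] 4268048 [] []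
    (by decide) (by decide) (by decide) (by decide) (by decide) (by decide)
  rw [card_Hc_nil] at h0
  simp only [List.length_cons, List.length_nil] at h0 h1 h2 h3 h4 h5
  omega

theorem sexKer_std_eq : sexKer stdSextet = fixer sexMasks := by
  ext g
  rw [mem_sexKer, mem_fixer]
  constructor
  · rintro ⟨h1, h2⟩
    exact ⟨h1, fun m hm => h2 _ (mem_stdSextet.mpr ⟨m, hm, rfl⟩)⟩
  · rintro ⟨h1, h2⟩
    refine ⟨h1, fun t ht => ?_⟩
    obtain ⟨m, hm, rfl⟩ := mem_stdSextet.mp ht
    exact h2 m hm

theorem card_sexKer_std : Nat.card (sexKer stdSextet) = 192 := by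
  rw [← card_Hc_all]
  have he : sexKer stdSextet = Hc [4268048, 2621632, 1082880, 268544, 147496, 8388615] := by
    ext g
    simp only [Hc, Subgroup.mem_inf, MulAction.mem_stabilizer_iff]
    constructor
    · intro hg
      refine ⟨?_, smul_eq_of_mem_sexKer hg⟩
      rw [sexKer_std_eq] at hg
      exact ⟨hg.1, fun m hm => hg.2 m (by revert m; decide)⟩
    · rintro ⟨hg, _⟩
      rw [sexKer_std_eq]
      exact ⟨hg.1, fun m hm => hg.2 m (by revert m; decide)⟩
  rw [he]

end Cfsg.Agent.Lib.Helper30
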