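import Cfsg.Agent.Lib.Helper30.OctadStab
import Cfsg.Agent.Lib.Helper30.PermRes
import Cfsg.Agent.Lib.Helper27.Steiner

/-!
# Pointwise stabilisers of 5-sets and 6-sets in `M24`
-/

set_option autoImplicit false

namespace Cfsg.Agent.Lib.Helper30

open Cfsg Cfsg.Agent.Lib.Helper27
open scoped Pointwise

theorem conj_mem_octFix {A : Finset GolayPt} {g k : Equiv.Perm GolayPt} (hg : g ∈ M24)
    (hk : k ∈ octFix A) : g * k * g⁻¹ ∈ octFix (g • A) := by
  rw [mem_octFix_iff] at hk ⊢
  refine ⟨M24.mul_mem (M24.mul_mem hg hk.1) (M24.inv_mem hg), ?_⟩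
  intro x hx
  obtain ⟨a, ha, rfl⟩ := Finset.mem_smul_finset.mp hx
  change g (k (g⁻¹ (g a))) = g a
  rw [perm_inv_apply_self, hk.2 a ha]

theorem card_octFix_smul {A : Finset GolayPt} {g : Equiv.Perm GolayPt} (hg : g ∈ M24) :
    Nat.card (octFix (g • A)) = Nat.card (octFix A) := by
  apply Nat.card_congr
  refine ⟨fun k => ⟨g⁻¹ * k.1 * g, ?_⟩, fun k => ⟨g * k.1 * g⁻¹, conj_mem_octFix hg k.2⟩, ?_, ?_⟩
  · have := conj_mem_octFix (M24.inv_mem hg) k.2
    rwa [inv_smul_smul, inv_inv] at this
  · intro k; apply Subtype.ext; simp only; group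
  · intro k; apply Subtype.ext; simp only; group

theorem octFix_std5 : octFix (unmask 8388623) = fixer L5 := by
  ext g
  rw [mem_octFix_iff]
  constructor
  · rintro ⟨h1, h2⟩
    refine ⟨h1, ?_⟩
    have hmem : ∀ i ∈ [3, 2, 1, 0, 23], pt i ∈ unmask 8388623 ∧ i < 24 := by decide +kernel
    have key : ∀ i ∈ [3, 2, 1, 0, 23], g • unmask (2 ^ i) = unmask (2 ^ i) := by
      intro i hi
      rw [smul_unmask_two_pow (hmem i hi).2, h2 _ (hmem i hi).1]
    intro m hm
    simp only [L5, List.mem_cons, List.not_mem_nil, or_false] at hm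
    rcases hm with rfl | rfl | rfl | rfl | rfl
    · exact key 3 (by decide)
    · exact key 2 (by decide)
    · exact key 1 (by decide)
    · exact key 0 (by decide)
    · exact key 23 (by decide)
  · intro h
    exact ⟨h.1, fixer_L5_fix h⟩

theorem card_octFix_five {A : Finset GolayPt} (hA : A.card = 5) : Nat.card (octFix A) = 48 := by
  obtain ⟨g, hg, hgA⟩ := five_to_std hA
  rw [← card_octFix_smul hg, hgA, octFix_std5, card_fixer_L5]

theorem octFix_insert (A : Finset GolayPt) (c : GolayPt) :
    octFix A ⊓ MulAction.stabilizer (Equiv.Perm GolayPt) c = octFix (insert c A) := by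
  ext g
  rw [Subgroup.mem_inf, mem_octFix_iff, mem_octFix_iff, MulAction.mem_stabilizer_iff]
  constructor
  · rintro ⟨⟨h1, h2⟩, h3⟩
    refine ⟨h1, fun x hx => ?_⟩
    rcases Finset.mem_insert.mp hx with rfl | hx
    · exact h3
    · exact h2 x hx
  · rintro ⟨h1, h2⟩
    exact ⟨⟨h1, fun x hx => h2 x (Finset.mem_insert_of_mem hx)⟩, h2 c (Finset.mem_insert_self _ _)⟩

theorem smul_octad_of_fix {A o : Finset GolayPt} (hA : 5 ≤ A.card) (ho : o ∈ octads) (hAo : A ⊆ o)
    {g : Equiv.Perm GolayPt} (hg : g ∈ octFix A) : g • o = o := by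
  rw [mem_octFix_iff] at hg
  apply octads_eq_of_inter (smul_mem_octads hg.1 ho) ho
  refine hA.trans (Finset.card_le_card ?_)
  intro x hx
  rw [Finset.mem_inter]
  refine ⟨?_, hAo hx⟩
  rw [← hg.2 x hx]
  exact Finset.smul_mem_smul_finset (hAo hx)

/-- pointwise stabiliser of six points of an octad. -/
theorem card_octFix_six_in {A o : Finset GolayPt} (hA : A.card = 5) (ho : o ∈ octads) (hAo : A ⊆ o)
    {c : GolayPt} (hcA : c ∉ A) (hco : c ∈ o) : Nat.card (octFix (insert c A)) = 16 := by
  have h := card_step (G := Equiv.Perm GolayPt) (octFix A) c ((o \ A : Finset GolayPt) : Set GolayPt)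
    (by
      intro y hy
      rw [Finset.mem_coe, Finset.mem_sdiff] at hy
      obtain ⟨k, hk, hk1, hk2⟩ := exists_fix_five hA ho hAo hcA hy.2 (by simp [hco, hy.1])
      exact ⟨k, mem_octFix_iff.mpr ⟨hk, hk1⟩, hk2⟩) (by
      intro g hg
      rw [Finset.mem_coe, Finset.mem_sdiff]
      constructor
      · exact (mem_iff_of_smul_eq (smul_octad_of_fix hA.ge ho hAo hg) c).mpr hco
      · intro hc
        have h1 := (mem_octFix_iff.mp hg).2 _ hc
        exact hcA (by rwa [g.injective h1] at hc))
  rw [card_octFix_five hA, Set.ncard_coe_finset, Finset.card_sdiff_of_subset hAo, ho.2, hA,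
    octFix_insert] at h
  omega

/-- pointwise stabiliser of six points not in an octad. -/
theorem card_octFix_six_out {A o : Finset GolayPt} (hA : A.card = 5) (ho : o ∈ octads)
    (hAo : A ⊆ o) {c : GolayPt} (hco : c ∉ o) : Nat.card (octFix (insert c A)) = 3 := by
  have hcA : c ∉ A := fun h => hco (hAo h)
  have h := card_step (G := Equiv.Perm GolayPt) (octFix A) c ((oᶜ : Finset GolayPt) : Set GolayPt)
    (by
      intro y hy
      rw [Finset.mem_coe, Finset.mem_compl] at hy
      obtain ⟨k, hk, hk1, hk2⟩ := exists_fix_five hA ho hAo hcA (fun h => hy (hAo h))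
        (by simp [hco, hy])
      exact ⟨k, mem_octFix_iff.mpr ⟨hk, hk1⟩, hk2⟩) (by
      intro g hg
      rw [Finset.mem_coe, Finset.mem_compl]
      intro hc
      exact hco ((mem_iff_of_smul_eq (smul_octad_of_fix hA.ge ho hAo hg) c).mp hc))
  rw [card_octFix_five hA, Set.ncard_coe_finset, Finset.card_compl, ho.2, octFix_insert] at h
  have h24 : Fintype.card GolayPt = 24 := by decide
  rw [h24] at h
  omega

/-- `M24` induces the full symmetric group on every 6-set. -/
theorem six_perm_induced {E : Finset GolayPt} (hE : E.card = 6) (σ : Equiv.Perm ↥E) :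
    ∃ g ∈ M24, ∀ p : ↥E, g p = σ p := by
  classical
  obtain ⟨c, hc⟩ : E.Nonempty := by rw [← Finset.card_pos, hE]; norm_num
  have hA : (E.erase c).card = 5 := by rw [Finset.card_erase_of_mem hc, hE]
  let f : GolayPt → GolayPt := fun a => if h : a ∈ E then (σ ⟨a, h⟩ : GolayPt) else a
  have hf : ∀ a (h : a ∈ E), f a = σ ⟨a, h⟩ := fun a h => dif_pos h
  have hfinj : Set.InjOn f E := by
    intro a ha b hb hab
    rw [hf a ha, hf b hb] at hab
    exact congrArg Subtype.val (σ.injective (Subtype.ext hab))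
  obtain ⟨g₁, hg₁, hg₁a⟩ := exists_M24_of_injOn (E.erase c) f hA.le
    (hfinj.mono (Finset.coe_subset.mpr (Finset.erase_subset _ _)))
  obtain ⟨o, ho, hAo⟩ := exists_octad (E.erase c) hA
  -- the image of `A`
  have hA' : (g₁ • E.erase c).card = 5 := by rw [Finset.card_smul_finset, hA]
  have hA'E : g₁ • E.erase c ⊆ E := by
    intro x hx
    obtain ⟨a, ha, rfl⟩ := Finset.mem_smul_finset.mp hx
    change g₁ a ∈ E
    rw [hg₁a a ha, hf a (Finset.mem_of_mem_erase ha)]
    exact (σ _).2
  have ho' : g₁ • o ∈ octads := smul_mem_octads hg₁ ho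
  have hA'o' : g₁ • E.erase c ⊆ g₁ • o := Finset.smul_finset_subset_smul_finset hAo
  have hy : g₁ c ∉ g₁ • E.erase c := by
    intro h
    have : c ∈ E.erase c := (Finset.smul_mem_smul_finset_iff g₁).mp h
    exact (Finset.notMem_erase c E) this
  have hy' : f c ∉ g₁ • E.erase c := by
    intro h
    obtain ⟨a, ha, hae⟩ := Finset.mem_smul_finset.mp h
    change g₁ a = f c at hae
    rw [hg₁a a ha] at hae
    have := hfinj (Finset.mem_of_mem_erase ha) hc hae
    exact (Finset.ne_of_mem_erase ha) this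
  have hEins : insert c (E.erase c) = E := Finset.insert_erase hc
  have hfcE : f c ∈ E := by rw [hf c hc]; exact (σ _).2
  have hEins' : insert (f c) (g₁ • E.erase c) = E := by
    apply Finset.eq_of_subset_of_card_le
    · intro x hx
      rcases Finset.mem_insert.mp hx with rfl | hx
      · exact hfcE
      · exact hA'E hx
    · rw [Finset.card_insert_of_notMem hy', hA', hE]
  have hiff : g₁ c ∈ g₁ • o ↔ f c ∈ g₁ • o := by
    constructor
    · intro h
      have hco : c ∈ o := (Finset.smul_mem_smul_finset_iff g₁).mp h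
      have hEo : E ⊆ o := by
        rw [← hEins]
        exact Finset.insert_subset hco hAo
      have : g₁ • o = o := by
        apply octads_eq_of_inter ho' ho
        rw [← hA']
        exact Finset.card_le_card (Finset.subset_inter hA'o' (hA'E.trans hEo))
      rw [this]
      exact hEo hfcE
    · intro h
      have hEo' : E ⊆ g₁ • o := by
        rw [← hEins']
        exact Finset.insert_subset h hA'o'
      have : g₁ • o = o := by
        apply octads_eq_of_inter ho' ho
        rw [← hA]
        exact Finset.card_le_card (Finset.subset_inter ((Finset.erase_subset _ _).trans hEo') hAo)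
      have hco : c ∈ o := by rw [← this]; exact hEo' hc
      exact Finset.smul_mem_smul_finset hco
  obtain ⟨k, hk, hk1, hk2⟩ := exists_fix_five hA' ho' hA'o' hy hy' hiff
  refine ⟨k * g₁, M24.mul_mem hk hg₁, ?_⟩
  intro p
  rw [Equiv.Perm.mul_apply, ← hf p p.2]
  by_cases hp : (p : GolayPt) = c
  · rw [hp, hk2]
  · have hp' : (p : GolayPt) ∈ E.erase c := Finset.mem_erase.mpr ⟨hp, p.2⟩
    have h1 : g₁ (p : GolayPt) ∈ g₁ • E.erase c := Finset.smul_mem_smul_finset hp'
    rw [hk1 _ h1, hg₁a _ hp']

end Cfsg.Agent.Lib.Helper30
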