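import Cfsg.Agent.Lib.Helper30.SteinerSearch

/-!
# Embedding abstract Steiner systems `S(t, t+1, v)` into the standard one
-/

set_option autoImplicit false

namespace Cfsg.Agent.Lib.Helper30.SS

open Cfsg Cfsg.Agent.Lib.Helper27
open scoped Pointwise

/-- membership in a list of numbers. -/
def memNat (c : ℕ) (l : List ℕ) : Bool := exList (fun x => Nat.beq x c) l

theorem memNat_iff (c : ℕ) (l : List ℕ) : memNat c l = true ↔ c ∈ l := by
  unfold memNat
  rw [exList_iff]
  constructor
  · rintro ⟨a, ha, e⟩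
    rw [Nat.beq_eq] at e
    rwa [← e]
  · intro h
    exact ⟨c, h, by rw [Nat.beq_eq]⟩

/-- the standard list is a Steiner system: the remaining checks. -/
def stdOk (t v : ℕ) (L0 : List ℕ) : Bool :=
  band (allList (fun m => band (Nat.blt m (2 ^ v)) (Nat.beq (pc m) (t + 1))) L0)
    (band (covOk t v L0)
      (allList (fun m => allList (fun m' => orb (Nat.beq m m') (Nat.blt (pc (Nat.land m m')) t)) L0) L0))

theorem rst_B0 {t v : ℕ} (hv : v ≤ 24) {L0 : List ℕ} (h : stdOk t v L0 = true) :
    RSt t v (B0 L0) := by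
  unfold stdOk at h
  rw [band_true, band_true, allList_iff, allList_iff] at h
  obtain ⟨h1, h2, h3⟩ := h
  have h1' : ∀ m ∈ L0, m < 2 ^ v ∧ pc m = t + 1 := by
    intro m hm
    have := h1 m hm
    rwa [band_true, Nat.blt_eq, Nat.beq_eq] at this
  have hL : ∀ m ∈ L0, m < 2 ^ 24 := fun m hm =>
    lt_of_lt_of_le (h1' m hm).1 (Nat.pow_le_pow_right (by norm_num) hv)
  constructor
  · rintro _ ⟨m, hm, rfl⟩
    rw [card_unmask, (h1' m hm).2]
  · rintro _ ⟨m, hm, rfl⟩
    exact unmask_subset_PU (h1' m hm).1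
  · intro s hs hc
    obtain ⟨m, hm, hsm⟩ := cov_of_covOk hL h2 s hs hc
    exact ⟨unmask m, ⟨m, hm, rfl⟩, hsm⟩
  · rintro _ ⟨m, hm, rfl⟩ _ ⟨m', hm', rfl⟩ s hs hs1 hs2
    have := h3 m hm
    rw [allList_iff] at this
    have := this m' hm'
    rw [orb_true, Nat.beq_eq, Nat.blt_eq] at this
    rcases this with e | e
    · rw [e]
    · exfalso
      have hle : s.card ≤ (unmask m ∩ unmask m').card :=
        Finset.card_le_card (Finset.subset_inter hs1 hs2)
      rw [card_eq_pc (unmask m ∩ unmask m'), mask_inter, mask_unmask (hL m hm),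
        mask_unmask (hL m' hm'), hs] at hle
      exact absurd e (by
        show ¬ pc (m &&& m') < t
        omega)

/-- `f` identifies the system `B` on `α` with the standard system. -/
def Emb {α : Type*} [DecidableEq α] (v : ℕ) (L0 : List ℕ) (B : Set (Finset α)) (f : α → GolayPt) :
    Prop :=
  Function.Injective f ∧ (∀ p, p ∈ PU v ↔ p ∈ Set.range f) ∧
    ∀ b : Finset α, b ∈ B ↔ b.image f ∈ B0 L0

section transport

variable {α : Type*} [Fintype α] [DecidableEq α]

set_option linter.unusedSectionVars false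

/-- the pull-back of a set of points. -/
def pull (f : α → GolayPt) (s : Finset GolayPt) : Finset α := Finset.univ.filter fun a => f a ∈ s

theorem image_pull {f : α → GolayPt} {s : Finset GolayPt} (hs : ∀ p ∈ s, p ∈ Set.range f) :
    (pull f s).image f = s := by
  ext p
  simp only [pull, Finset.mem_image, Finset.mem_filter, Finset.mem_univ, true_and]
  constructor
  · rintro ⟨a, ha, rfl⟩; exact ha
  · intro hp
    obtain ⟨a, rfl⟩ := hs p hp
    exact ⟨a, hp, rfl⟩

theorem card_pull {f : α → GolayPt} (hf : Function.Injective f) {s : Finset GolayPt}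
    (hs : ∀ p ∈ s, p ∈ Set.range f) : (pull f s).card = s.card := by
  rw [← Finset.card_image_of_injective _ hf, image_pull hs]

theorem pull_subset {f : α → GolayPt} (hf : Function.Injective f) {s : Finset GolayPt}
    {b : Finset α} (h : s ⊆ b.image f) : pull f s ⊆ b := by
  intro a ha
  simp only [pull, Finset.mem_filter, Finset.mem_univ, true_and] at ha
  obtain ⟨a', ha', e⟩ := Finset.mem_image.1 (h ha)
  rwa [← hf e]

theorem rst_image {t v : ℕ} {B : Set (Finset α)} (hB : IsSteinerSystem t (t + 1) B)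
    {f : α → GolayPt} (hf : Function.Injective f) (hr : ∀ p, p ∈ PU v ↔ p ∈ Set.range f) :
    RSt t v ((fun b => b.image f) '' B) := by
  constructor
  · rintro _ ⟨b, hb, rfl⟩
    show (b.image f).card = t + 1
    rw [Finset.card_image_of_injective _ hf, hB.1 b hb]
  · rintro _ ⟨b, hb, rfl⟩ p hp
    obtain ⟨a, -, rfl⟩ := Finset.mem_image.1 hp
    exact (hr _).2 ⟨a, rfl⟩
  · intro s hs hc
    have hs' : ∀ p ∈ s, p ∈ Set.range f := fun p hp => (hr p).1 (hs hp)
    obtain ⟨b, ⟨hb, hsb⟩, -⟩ := hB.2 (pull f s) (by rw [card_pull hf hs', hc])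
    refine ⟨b.image f, ⟨b, hb, rfl⟩, ?_⟩
    rw [← image_pull hs']
    exact Finset.image_subset_image hsb
  · rintro _ ⟨b, hb, rfl⟩ _ ⟨c, hc, rfl⟩ s hs h1 h2
    show b.image f = c.image f
    have hs' : ∀ p ∈ s, p ∈ Set.range f := by
      intro p hp
      obtain ⟨a, -, rfl⟩ := Finset.mem_image.1 (h1 hp)
      exact ⟨a, rfl⟩
    have := (hB.2 (pull f s) (by rw [card_pull hf hs', hs])).unique
      ⟨hb, pull_subset hf h1⟩ ⟨hc, pull_subset hf h2⟩
    rw [this]

theorem exists_emb {t v : ℕ} (hv : v ≤ 24) (htv : t ≤ v) {L0 : List ℕ} (hstd : stdOk t v L0 = true)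
    (hgoal : Goal t v L0 0) (hPU : (PU v).card = v) (hα : Fintype.card α = v)
    {B : Set (Finset α)} (hB : IsSteinerSystem t (t + 1) B) (x : Fin t ↪ α) :
    ∃ f : α → GolayPt, Emb v L0 B f ∧ ∀ i, f (x i) = pt i := by
  have hcard : Fintype.card α = Fintype.card {p // p ∈ PU v} := by
    rw [Fintype.card_coe, hPU, hα]
  let e0 : α ≃ {p // p ∈ PU v} := Fintype.equivOfCardEq hcard
  let x' : Fin t ↪ {p // p ∈ PU v} := x.trans e0.toEmbedding
  let y' : Fin t ↪ {p // p ∈ PU v} := ⟨fun i => ⟨pt i, mem_PU.2 (by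
      rw [idx_pt (by omega)]; omega)⟩, by
    intro i j h
    have h' := congrArg (fun z : {p // p ∈ PU v} => idx z.1) h
    simp only at h'
    rw [idx_pt (by omega), idx_pt (by omega)] at h'
    exact Fin.ext h'⟩
  obtain ⟨g, hg⟩ := Equiv.Perm.exists_smul_eq_embedding x' y'
  let f : α → GolayPt := fun a => (g (e0 a) : GolayPt)
  have hf : Function.Injective f := by
    intro a b h
    exact e0.injective (g.injective (Subtype.ext h))
  have hr : ∀ p, p ∈ PU v ↔ p ∈ Set.range f := by
    intro p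
    constructor
    · intro hp
      refine ⟨e0.symm (g.symm ⟨p, hp⟩), ?_⟩
      simp [f]
    · rintro ⟨a, rfl⟩
      exact (g (e0 a)).2
  have hfx : ∀ i, f (x i) = pt i := by
    intro i
    have := congrArg (fun z : Fin t ↪ {p // p ∈ PU v} => (z i : GolayPt)) hg
    exact this
  obtain ⟨σ, h1, h2, h3⟩ := hgoal _ (rst_image hB hf hr) (by intro m hm; simp at hm)
  have hR := rst_B0 hv hstd
  have hf' : Function.Injective (σ ∘ f) := σ.injective.comp hf
  have him : ∀ b : Finset α, b.image (σ ∘ f) = σ • b.image f := by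
    intro b
    rw [← Finset.image_image]; rfl
  refine ⟨σ ∘ f, ⟨hf', ?_, ?_⟩, ?_⟩
  · intro p
    rw [← h2, ← Finset.inv_smul_mem_iff, hr]
    constructor
    · rintro ⟨a, ha⟩
      refine ⟨a, ?_⟩
      show σ (f a) = p
      rw [ha]; simp
    · rintro ⟨a, rfl⟩
      exact ⟨a, by simp⟩
  · intro b
    constructor
    · intro hb
      rw [him]
      exact h3 _ ⟨b, hb, rfl⟩
    · intro hb
      have hbc : b.card = t + 1 := by
        rw [← Finset.card_image_of_injective _ hf']; exact hR.card _ hb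
      obtain ⟨s, hsb, hs⟩ := Finset.exists_subset_card_eq (s := b) (n := t) (by omega)
      obtain ⟨c, ⟨hc, hsc⟩, -⟩ := hB.2 s hs
      have hc' : c.image (σ ∘ f) ∈ B0 L0 := by
        rw [him]; exact h3 _ ⟨c, hc, rfl⟩
      have e := hR.uniq _ hb _ hc' (s.image (σ ∘ f))
        (by rw [Finset.card_image_of_injective _ hf', hs])
        (Finset.image_subset_image hsb) (Finset.image_subset_image hsc)
      rw [Finset.image_injective hf' e]
      exact hc
  · intro i
    show σ (f (x i)) = pt i
    rw [hfx, h1 i i.2]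

end transport

section consequences

variable {α : Type*} [DecidableEq α]

/-- the bijection between two embedded systems. -/
theorem Emb.exists_equiv {β : Type*} [DecidableEq β] {v : ℕ} {L0 : List ℕ}
    {B : Set (Finset α)} {B' : Set (Finset β)} {f : α → GolayPt} {f' : β → GolayPt}
    (h : Emb v L0 B f) (h' : Emb v L0 B' f') :
    ∃ e : α ≃ β, (∀ a, f' (e a) = f a) ∧ ∀ b : Finset α, b ∈ B ↔ b.image e ∈ B' := by
  obtain ⟨hf, hr, hB⟩ := h
  obtain ⟨hf', hr', hB'⟩ := h'
  have heq : Set.range f = Set.range f' := by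
    ext p; rw [← hr, ← hr']
  let e : α ≃ β := (Equiv.ofInjective f hf).trans ((Equiv.setCongr heq).trans
    (Equiv.ofInjective f' hf').symm)
  have he : ∀ a, f' (e a) = f a := by
    intro a
    show f' ((Equiv.ofInjective f' hf').symm _) = f a
    exact Equiv.apply_ofInjective_symm hf' _
  refine ⟨e, he, fun b => ?_⟩
  have him : (b.image e).image f' = b.image f := by
    rw [Finset.image_image]
    exact Finset.image_congr (fun a _ => he a)
  rw [hB', him, ← hB]

theorem Emb.iso {β : Type*} [DecidableEq β] {v : ℕ} {L0 : List ℕ}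
    {B : Set (Finset α)} {B' : Set (Finset β)} {f : α → GolayPt} {f' : β → GolayPt}
    (h : Emb v L0 B f) (h' : Emb v L0 B' f') : SetSystemIso B B' := by
  obtain ⟨e, -, he⟩ := h.exists_equiv h'
  refine ⟨e, ?_⟩
  ext c
  constructor
  · rintro ⟨b, hb, rfl⟩
    exact (he b).1 hb
  · intro hc
    have e1 : (c.image e.symm).image e = c := by
      rw [Finset.image_image]
      have : (e ∘ e.symm) = id := by ext; simp
      rw [this, Finset.image_id]
    refine ⟨c.image e.symm, ?_, e1⟩
    rw [he, e1]; exact hc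

theorem mem_setSystemAut_of_iff {B : Set (Finset α)} {e : Equiv.Perm α}
    (h : ∀ b : Finset α, b ∈ B ↔ b.image e ∈ B) : e ∈ setSystemAut B := by
  rw [MulAction.mem_stabilizer_iff]
  ext c
  rw [Set.mem_smul_set_iff_inv_smul_mem, h]
  have : (e⁻¹ • c).image e = c := by
    show e • (e⁻¹ • c) = c
    rw [smul_inv_smul]
  rw [this]

end consequences

end Cfsg.Agent.Lib.Helper30.SS
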