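import Cfsg.Agent.Lib.Helper30.SteinerEmb

/-!
# Rigidity of the standard Steiner system `S(t, t+1, v)` and the automorphism groups
-/

set_option autoImplicit false

namespace Cfsg.Agent.Lib.Helper30.SS

open Cfsg Cfsg.Agent.Lib.Helper27
open scoped Pointwise

section rigid

variable {t v : ℕ} {L0 : List ℕ}

theorem smul_eq_of_fix {σ : Equiv.Perm GolayPt} {s : Finset GolayPt} (h : ∀ p ∈ s, σ p = p) :
    σ • s = s := by
  have : σ • s = s.image (fun a => σ a) := rfl
  rw [this, Finset.image_congr (g := id) (fun a ha => h a ha), Finset.image_id]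

theorem forced (hR : RSt t v (B0 L0)) {σ : Equiv.Perm GolayPt} (h2 : ∀ b ∈ B0 L0, σ • b ∈ B0 L0)
    {T x y x' y' : ℕ} (hx24 : x < 24) (hy24 : y < 24) (hx'24 : x' < 24) (hy'24 : y' < 24)
    (hT : ∀ p ∈ unmask T, σ p = p) (hx : σ (pt x) = pt x')
    (hm : (T ||| 1 <<< x) ||| 1 <<< y ∈ L0) (hm' : (T ||| 1 <<< x') ||| 1 <<< y' ∈ L0)
    (hc : pc (T ||| 1 <<< x') = t) (hy : (T ||| 1 <<< x).testBit y = false) :
    σ (pt y) = pt y' := by
  have e2 : σ • unmask (T ||| 1 <<< x) = unmask (T ||| 1 <<< x') := by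
    rw [unmask_or_bit T hx24, unmask_or_bit T hx'24, Finset.smul_finset_insert, smul_eq_of_fix hT]
    congr 1
  have e3 : σ • unmask ((T ||| 1 <<< x) ||| 1 <<< y) =
      insert (σ (pt y)) (unmask (T ||| 1 <<< x')) := by
    rw [unmask_or_bit _ hy24, Finset.smul_finset_insert, e2]; rfl
  have h4 := h2 _ ⟨_, hm, rfl⟩
  have h5 := hR.uniq _ h4 _ ⟨_, hm', rfl⟩ (unmask (T ||| 1 <<< x')) (by rw [card_unmask, hc])
    (by rw [e3]; exact Finset.subset_insert _ _)
    (by rw [unmask_or_bit _ hy'24]; exact Finset.subset_insert _ _)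
  have h6 : σ (pt y) ∈ insert (pt y') (unmask (T ||| 1 <<< x')) := by
    rw [← unmask_or_bit _ hy'24, ← h5, e3]; exact Finset.mem_insert_self _ _
  rcases Finset.mem_insert.1 h6 with h | h
  · exact h
  · exfalso
    rw [← e2] at h
    have h7 : pt y ∈ unmask (T ||| 1 <<< x) := (Finset.smul_mem_smul_finset_iff σ).1 h
    rw [mem_unmask, idx_pt hy24, hy] at h7
    exact Bool.noConfusion h7

/-- the extra point of the first standard block containing `z`. -/
def phi (L0 : List ℕ) (z : ℕ) : ℕ :=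
  List.rec 0 (fun m _ ih => Bool.rec ih (Nat.log2 (Nat.xor m z)) (Nat.beq (Nat.land z m) z)) L0

/-- the checks on one value of `phi`. -/
def phiOk (t v : ℕ) (L0 : List ℕ) (T x : ℕ) : Bool :=
  band (Nat.blt t (phi L0 (Nat.lor T (Nat.shiftLeft 1 x))))
    (band (Nat.blt (phi L0 (Nat.lor T (Nat.shiftLeft 1 x))) v)
      (band (notb (tbit (Nat.lor T (Nat.shiftLeft 1 x)) (phi L0 (Nat.lor T (Nat.shiftLeft 1 x)))))
        (band (memNat (Nat.lor (Nat.lor T (Nat.shiftLeft 1 x))
            (Nat.shiftLeft 1 (phi L0 (Nat.lor T (Nat.shiftLeft 1 x))))) L0)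
          (Nat.beq (pc (Nat.lor T (Nat.shiftLeft 1 x))) t))))

theorem phiOk_iff {T x : ℕ} : phiOk t v L0 T x = true ↔
    t < phi L0 (T ||| 1 <<< x) ∧ phi L0 (T ||| 1 <<< x) < v ∧
      (T ||| 1 <<< x).testBit (phi L0 (T ||| 1 <<< x)) = false ∧
      (T ||| 1 <<< x) ||| 1 <<< phi L0 (T ||| 1 <<< x) ∈ L0 ∧ pc (T ||| 1 <<< x) = t := by
  unfold phiOk
  rw [band_true, band_true, band_true, band_true, Nat.blt_eq, Nat.blt_eq, notb_true, tbit_eq,
    memNat_iff, Nat.beq_eq]
  rfl

/-- the checks on the list of `(t-1)`-subsets of the base block. -/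
def tsOk (t v : ℕ) (L0 Ts : List ℕ) : Bool :=
  allList (fun T => band (Nat.blt T (2 ^ (t + 1)))
    (allBelow (fun x => orb (Nat.ble x t) (phiOk t v L0 T x)) v)) Ts

theorem tsOk_iff {Ts : List ℕ} : tsOk t v L0 Ts = true ↔
    ∀ T ∈ Ts, T < 2 ^ (t + 1) ∧ ∀ x, t < x → x < v → phiOk t v L0 T x = true := by
  unfold tsOk
  rw [allList_iff]
  apply forall_congr'
  intro T
  apply forall_congr'
  intro _
  rw [band_true, Nat.blt_eq, allBelow_iff]
  apply and_congr_right
  intro _
  constructor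
  · intro h x h1 h2
    have := h x h2
    rw [orb_true, Nat.ble_eq] at this
    rcases this with h3 | h3
    · omega
    · exact h3
  · intro h x h2
    rw [orb_true, Nat.ble_eq]
    by_cases h1 : x ≤ t
    · exact Or.inl h1
    · exact Or.inr (h x (by omega) h2)

/-- evaluation of a word in the maps `phi (T ∪ ·)`. -/
def ev (L0 : List ℕ) (w : List ℕ) (x : ℕ) : ℕ :=
  List.rec x (fun T _ ih => phi L0 (Nat.lor T (Nat.shiftLeft 1 ih))) w

theorem ev_cons (T : ℕ) (w : List ℕ) (x : ℕ) :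
    ev L0 (T :: w) x = phi L0 (T ||| 1 <<< ev L0 w x) := rfl

/-- the certificate for rigidity. -/
def rigOk (t v : ℕ) (L0 Ts : List ℕ) (W : List (List ℕ)) : Bool :=
  band (allList (fun w => allList (fun T => memNat T Ts) w) W)
    (band (allBelow (fun j => orb (Nat.ble j (t + 1))
        (exList (fun w => band (Nat.beq (ev L0 w (t + 1)) (t + 1)) (notb (Nat.beq (ev L0 w j) j))) W)) v)
      (allBelow (fun x => orb (Nat.ble x t) (exList (fun w => Nat.beq (ev L0 w (t + 1)) x) W)) v))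

theorem rigid (hv : v ≤ 24) (htv : t + 1 < v) (hR : RSt t v (B0 L0)) {Ts : List ℕ}
    {W : List (List ℕ)} (hTs : tsOk t v L0 Ts = true) (hW : rigOk t v L0 Ts W = true)
    {σ : Equiv.Perm GolayPt} (hfix : ∀ i < t + 1, σ (pt i) = pt i)
    (h2 : ∀ b ∈ B0 L0, σ • b ∈ B0 L0) (h3 : σ • PU v = PU v) : ∀ i < v, σ (pt i) = pt i := by
  rw [tsOk_iff] at hTs
  unfold rigOk at hW
  rw [band_true, band_true, allList_iff, allBelow_iff, allBelow_iff] at hW
  obtain ⟨hW1, hW2, hW3⟩ := hW
  have hrange : ∀ x, t < x → x < v → t < idx (σ (pt x)) ∧ idx (σ (pt x)) < v := by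
    intro x h1 hxv
    have hm : σ (pt x) ∈ PU v := by
      rw [← h3]
      exact (Finset.smul_mem_smul_finset_iff σ).2 (mem_PU.2 (by rw [idx_pt (by omega)]; exact hxv))
    refine ⟨?_, mem_PU.1 hm⟩
    by_contra hle
    have h4 := hfix (idx (σ (pt x))) (by omega)
    rw [pt_idx] at h4
    have h5 := σ.injective h4
    have h6 := congrArg idx h5
    rw [idx_pt (by omega)] at h6
    omega
  have hcomm : ∀ T ∈ Ts, ∀ x, t < x → x < v →
      σ (pt (phi L0 (T ||| 1 <<< x))) = pt (phi L0 (T ||| 1 <<< idx (σ (pt x)))) := by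
    intro T hT x h1 hxv
    obtain ⟨hTlt, hTx⟩ := hTs T hT
    obtain ⟨r1, r2⟩ := hrange x h1 hxv
    obtain ⟨a1, a2, a3, a4, a5⟩ := phiOk_iff.1 (hTx x h1 hxv)
    obtain ⟨b1, b2, b3, b4, b5⟩ := phiOk_iff.1 (hTx _ r1 r2)
    refine forced hR h2 (by omega) (by omega) (by omega) (by omega) ?_ (by rw [pt_idx]) a4 b4 b5 a3
    intro p hp
    have := mem_PU.1 (unmask_subset_PU hTlt hp)
    have h4 := hfix (idx p) this
    rwa [pt_idx] at h4
  have hev : ∀ w : List ℕ, (∀ T ∈ w, T ∈ Ts) → ∀ x, t < x → x < v →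
      (t < ev L0 w x ∧ ev L0 w x < v) ∧
        idx (σ (pt (ev L0 w x))) = ev L0 w (idx (σ (pt x))) := by
    intro w
    induction w with
    | nil =>
      intro _ x h1 hxv
      exact ⟨⟨h1, hxv⟩, rfl⟩
    | cons T w ih =>
      intro hw x h1 hxv
      obtain ⟨⟨c1, c2⟩, c3⟩ := ih (fun T' hT' => hw T' (List.mem_cons_of_mem _ hT')) x h1 hxv
      have hT : T ∈ Ts := hw T List.mem_cons_self
      obtain ⟨a1, a2, -⟩ := phiOk_iff.1 ((hTs T hT).2 _ c1 c2)
      obtain ⟨r1, r2⟩ := hrange _ c1 c2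
      obtain ⟨b1, b2, -⟩ := phiOk_iff.1 ((hTs T hT).2 _ r1 r2)
      rw [ev_cons, ev_cons]
      refine ⟨⟨a1, a2⟩, ?_⟩
      rw [hcomm T hT _ c1 c2, idx_pt (by omega), c3]
  have hWmem : ∀ w ∈ W, ∀ T ∈ w, T ∈ Ts := by
    intro w hw T hT
    have := hW1 w hw
    rw [allList_iff] at this
    exact (memNat_iff T Ts).1 (this T hT)
  have hs0 : idx (σ (pt (t + 1))) = t + 1 := by
    by_contra hne
    obtain ⟨r1, r2⟩ := hrange (t + 1) (by omega) htv
    have := hW2 _ r2
    rw [orb_true, Nat.ble_eq, exList_iff] at this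
    rcases this with h | ⟨w, hw, h⟩
    · omega
    · rw [band_true, Nat.beq_eq, notb_true] at h
      obtain ⟨e1, e2⟩ := h
      have e3 := (hev w (hWmem w hw) (t + 1) (by omega) htv).2
      rw [e1] at e3
      rw [← e3] at e2
      have : Nat.beq (idx (σ (pt (t + 1)))) (idx (σ (pt (t + 1)))) = true := by rw [Nat.beq_eq]
      rw [this] at e2
      exact Bool.noConfusion e2
  intro i hi
  by_cases hit : i < t + 1
  · exact hfix i hit
  · have := hW3 i hi
    rw [orb_true, Nat.ble_eq, exList_iff] at this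
    rcases this with h | ⟨w, hw, h⟩
    · omega
    · rw [Nat.beq_eq] at h
      have e3 := (hev w (hWmem w hw) (t + 1) (by omega) htv).2
      rw [h, hs0, h] at e3
      have h5 := pt_idx (σ (pt i))
      rw [e3] at h5
      exact h5.symm

end rigid

section aut

variable {α : Type*} [Fintype α] [DecidableEq α]

theorem aut_props {t v : ℕ} {L0 : List ℕ} {B : Set (Finset α)} (hR : RSt t v (B0 L0))
    (hemb : ∀ x : Fin t ↪ α, ∃ f : α → GolayPt, Emb v L0 B f ∧ ∀ i, f (x i) = pt i)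
    (hrig : ∀ σ : Equiv.Perm GolayPt, (∀ i < t, σ (pt i) = pt i) → (∀ b ∈ B0 L0, σ • b ∈ B0 L0) →
      σ • PU v = PU v → ∀ i < v, σ (pt i) = pt i) :
    MulAction.IsMultiplyPretransitive (setSystemAut B) α t ∧
      ∀ x : Fin t ↪ α, MulAction.stabilizer (setSystemAut B) x = ⊥ := by
  constructor
  · rw [MulAction.isMultiplyPretransitive_iff]
    intro x y
    obtain ⟨f, hf, hfx⟩ := hemb x
    obtain ⟨f', hf', hfy⟩ := hemb y
    obtain ⟨e, he, heB⟩ := hf.exists_equiv hf'
    refine ⟨⟨e, mem_setSystemAut_of_iff heB⟩, ?_⟩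
    ext i
    show e (x i) = y i
    apply hf'.1
    rw [he, hfx, hfy]
  · intro x
    rw [eq_bot_iff]
    rintro ⟨g, hg⟩ hgx
    rw [Subgroup.mem_bot]
    apply Subtype.ext
    show g = 1
    obtain ⟨f, ⟨hf, hr, hB⟩, hfx⟩ := hemb x
    classical
    let F : α ≃ {p // p ∈ Set.range f} := Equiv.ofInjective f hf
    let σ : Equiv.Perm GolayPt := g.extendDomain F
    have hσ : ∀ a, σ (f a) = f (g a) := by
      intro a
      exact Equiv.Perm.extendDomain_apply_image g F a
    have hgB : ∀ b ∈ B, g • b ∈ B := by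
      intro b hb
      have h1 : g • B = B := hg
      rw [← h1]
      exact ⟨b, hb, rfl⟩
    have him : ∀ b : Finset α, σ • b.image f = (g • b).image f := by
      intro b
      ext p
      constructor
      · intro hp
        obtain ⟨q, hq, rfl⟩ := Finset.mem_smul_finset.1 hp
        obtain ⟨a, ha, rfl⟩ := Finset.mem_image.1 hq
        show σ (f a) ∈ _
        rw [hσ]
        exact Finset.mem_image_of_mem f (Finset.smul_mem_smul_finset ha)
      · intro hp
        obtain ⟨a', ha', rfl⟩ := Finset.mem_image.1 hp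
        obtain ⟨a, ha, rfl⟩ := Finset.mem_smul_finset.1 ha'
        show f (g a) ∈ _
        rw [← hσ]
        exact Finset.smul_mem_smul_finset (Finset.mem_image_of_mem f ha)
    have hfixx : ∀ i, g (x i) = x i := by
      intro i
      have := congrArg (fun z : Fin t ↪ α => z i) (MulAction.mem_stabilizer_iff.1 hgx)
      exact this
    have key := hrig σ (by
        intro i hi
        rw [← hfx ⟨i, hi⟩, hσ, hfixx]) (by
        intro b0 hb0
        have hsub : ∀ p ∈ b0, p ∈ Set.range f := fun p hp => (hr p).1 (hR.sub b0 hb0 hp)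
        rw [← image_pull hsub, him]
        rw [← hB]
        apply hgB
        rw [hB, image_pull hsub]
        exact hb0) (by
        have hPU : PU v = (Finset.univ : Finset α).image f := by
          ext p; rw [hr]; simp
        rw [hPU, him, Finset.smul_finset_univ])
    ext a
    apply hf
    have ha : f a ∈ PU v := (hr _).2 ⟨a, rfl⟩
    have := key (idx (f a)) (mem_PU.1 ha)
    rw [pt_idx, hσ] at this
    exact this

end aut

end Cfsg.Agent.Lib.Helper30.SS
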