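import Cfsg.Agent.Lib.Helper27.Perm

/-!
# A certified search for the Steiner systems `S(t, t+1, v)` on the first `v` points of `GolayPt`

Blocks are bitmasks.  `Goal S` says that every system containing the blocks recorded in the
bit set `S` can be carried, by a permutation fixing the first `t` points, into the
standard system given by the list `L0`.
-/

set_option autoImplicit false

namespace Cfsg.Agent.Lib.Helper30.SS

open Cfsg Cfsg.Agent.Lib.Helper27
open scoped Pointwise

/-! ### Boolean helpers -/

/-- raw test of bit `i`. -/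
def tbit (m i : ℕ) : Bool := Nat.beq (Nat.land (Nat.shiftRight m i) 1) 1

theorem tbit_eq (m i : ℕ) : tbit m i = m.testBit i := by
  have h : tbit m i = Nat.beq ((m >>> i) &&& 1) 1 := rfl
  rw [h, shiftRight_and_one]
  cases m.testBit i <;> rfl

/-- disjunction by a bare recursor. -/
def orb (x y : Bool) : Bool := Bool.rec y true x

theorem orb_eq (x y : Bool) : orb x y = (x || y) := by cases x <;> rfl

theorem orb_true {x y : Bool} : orb x y = true ↔ x = true ∨ y = true := by
  cases x <;> cases y <;> simp [orb]

/-- negation by a bare recursor. -/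
def notb (x : Bool) : Bool := Bool.rec true false x

theorem notb_true {x : Bool} : notb x = true ↔ x = false := by cases x <;> simp [notb]

theorem band_true {x y : Bool} : band x y = true ↔ x = true ∧ y = true := by
  cases x <;> cases y <;> simp [band]

/-- existential quantifier below a bound. -/
def exBelow (f : ℕ → Bool) (n : ℕ) : Bool := Nat.rec false (fun k ih => orb (f k) ih) n

theorem exBelow_iff (f : ℕ → Bool) (n : ℕ) : exBelow f n = true ↔ ∃ k < n, f k = true := by
  induction n with
  | zero => simp [exBelow]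
  | succ n ih =>
    have h : exBelow f (n + 1) = orb (f n) (exBelow f n) := rfl
    rw [h, orb_true, ih]
    constructor
    · rintro (h | ⟨k, hk, h⟩)
      · exact ⟨n, by omega, h⟩
      · exact ⟨k, by omega, h⟩
    · rintro ⟨k, hk, h'⟩
      rcases Nat.lt_succ_iff_lt_or_eq.1 hk with hk | rfl
      · exact Or.inr ⟨k, hk, h'⟩
      · exact Or.inl h'

/-- existential quantifier over a list. -/
def exList {α : Type} (f : α → Bool) (l : List α) : Bool :=
  List.rec false (fun a _ ih => orb (f a) ih) l

theorem exList_iff {α : Type} (f : α → Bool) (l : List α) :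
    exList f l = true ↔ ∃ a ∈ l, f a = true := by
  induction l with
  | nil => simp [exList]
  | cons a l ih =>
    have h : exList f (a :: l) = orb (f a) (exList f l) := rfl
    rw [h, orb_true, ih]
    simp

/-! ### bit lemmas -/

theorem testBit_one_shl (y x : ℕ) : (1 <<< y).testBit x = true ↔ x = y := by
  rw [Nat.one_shiftLeft, Nat.testBit_two_pow]
  simp [eq_comm]

theorem xor_bit {c i : ℕ} (h : c.testBit i = true) :
    (c ^^^ 1 <<< i).testBit i = false ∧ (c ^^^ 1 <<< i) ||| 1 <<< i = c := by
  constructor
  · rw [Nat.testBit_xor, h, (testBit_one_shl i i).2 rfl]; rfl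
  · apply Nat.eq_of_testBit_eq
    intro j
    rw [Nat.testBit_or, Nat.testBit_xor]
    by_cases hj : j = i
    · subst hj; rw [h, (testBit_one_shl j j).2 rfl]; rfl
    · have : (1 <<< i).testBit j = false := by
        rw [Bool.eq_false_iff]; intro e; exact hj ((testBit_one_shl i j).1 e)
      rw [this]; simp

theorem or_bit {x i : ℕ} (h : x.testBit i = false) :
    (x ||| 1 <<< i).testBit i = true ∧ (x ||| 1 <<< i) ^^^ 1 <<< i = x := by
  constructor
  · rw [Nat.testBit_or, (testBit_one_shl i i).2 rfl]; simp
  · apply Nat.eq_of_testBit_eq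
    intro j
    rw [Nat.testBit_xor, Nat.testBit_or]
    by_cases hj : j = i
    · subst hj; rw [h, (testBit_one_shl j j).2 rfl]; rfl
    · have : (1 <<< i).testBit j = false := by
        rw [Bool.eq_false_iff]; intro e; exact hj ((testBit_one_shl i j).1 e)
      rw [this]; simp

theorem exists_testBit_of_and_ne_zero {a b : ℕ} (h : a &&& b ≠ 0) :
    ∃ x, a.testBit x = true ∧ b.testBit x = true := by
  obtain ⟨x, hx⟩ := Nat.exists_testBit_of_ne_zero h
  rw [Nat.testBit_and, Bool.and_eq_true] at hx
  exact ⟨x, hx⟩

theorem mem_unmask {m : ℕ} {p : GolayPt} : p ∈ unmask m ↔ m.testBit (idx p) = true := by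
  simp [unmask]

theorem unmask_or_bit (q : ℕ) {i : ℕ} (hi : i < 24) :
    unmask (q ||| 1 <<< i) = insert (pt i) (unmask q) := by
  ext p
  rw [mem_unmask, Finset.mem_insert, mem_unmask, Nat.testBit_or, Bool.or_eq_true, testBit_one_shl]
  constructor
  · rintro (h | h)
    · exact Or.inr h
    · left; rw [← h, pt_idx]
  · rintro (h | h)
    · right; rw [h, idx_pt hi]
    · exact Or.inl h

theorem or_bit_lt {q i : ℕ} (hq : q < 2 ^ 24) (hi : i < 24) : q ||| 1 <<< i < 2 ^ 24 := by
  apply Nat.or_lt_two_pow hq
  rw [Nat.one_shiftLeft]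
  exact Nat.pow_lt_pow_right (by norm_num) hi

/-! ### the points and the systems -/

/-- the first `v` points. -/
def PU (v : ℕ) : Finset GolayPt := unmask (2 ^ v - 1)

theorem mem_PU {v : ℕ} {p : GolayPt} : p ∈ PU v ↔ idx p < v := by
  unfold PU
  rw [mem_unmask, Nat.testBit_two_pow_sub_one]
  simp

theorem unmask_subset_PU {v m : ℕ} (hm : m < 2 ^ v) : unmask m ⊆ PU v := by
  intro p hp
  rw [mem_PU]
  rw [mem_unmask] at hp
  by_contra h
  have : m < 2 ^ idx p := lt_of_lt_of_le hm (Nat.pow_le_pow_right (by norm_num) (by omega))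
  rw [Nat.testBit_lt_two_pow this] at hp
  exact Bool.false_ne_true hp

/-- a Steiner system `S(t, t+1, v)` on the first `v` points. -/
structure RSt (t v : ℕ) (B : Set (Finset GolayPt)) : Prop where
  card : ∀ b ∈ B, b.card = t + 1
  sub : ∀ b ∈ B, b ⊆ PU v
  ex : ∀ s : Finset GolayPt, s ⊆ PU v → s.card = t → ∃ b ∈ B, s ⊆ b
  uniq : ∀ b ∈ B, ∀ c ∈ B, ∀ s : Finset GolayPt, s.card = t → s ⊆ b → s ⊆ c → b = c

theorem RSt.smul {t v : ℕ} {B : Set (Finset GolayPt)} (h : RSt t v B) {σ : Equiv.Perm GolayPt}
    (hσ : σ • PU v = PU v) : RSt t v (σ • B) := by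
  have hσ' : σ⁻¹ • PU v = PU v := by rw [inv_smul_eq_iff, hσ]
  constructor
  · rintro _ ⟨b, hb, rfl⟩
    show (σ • b).card = t + 1
    rw [Finset.card_smul_finset]; exact h.card b hb
  · rintro _ ⟨b, hb, rfl⟩
    show σ • b ⊆ PU v
    rw [← hσ]; exact Finset.smul_finset_subset_smul_finset (h.sub b hb)
  · intro s hs hc
    obtain ⟨b, hb, hsb⟩ := h.ex (σ⁻¹ • s)
      (by rw [← hσ']; exact Finset.smul_finset_subset_smul_finset hs)
      (by rw [Finset.card_smul_finset]; exact hc)
    refine ⟨σ • b, ⟨b, hb, rfl⟩, ?_⟩
    have := Finset.smul_finset_subset_smul_finset (a := σ) hsb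
    rwa [smul_inv_smul] at this
  · rintro _ ⟨b, hb, rfl⟩ _ ⟨c, hc, rfl⟩ s hs h1 h2
    show σ • b = σ • c
    have e := h.uniq b hb c hc (σ⁻¹ • s) (by rw [Finset.card_smul_finset]; exact hs)
      (by
        have := Finset.smul_finset_subset_smul_finset (a := σ⁻¹) h1
        rwa [show σ⁻¹ • (fun x => σ • x) b = b from inv_smul_smul σ b] at this)
      (by
        have := Finset.smul_finset_subset_smul_finset (a := σ⁻¹) h2
        rwa [show σ⁻¹ • (fun x => σ • x) c = c from inv_smul_smul σ c] at this)
    rw [e]

/-- the standard system. -/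
def B0 (L0 : List ℕ) : Set (Finset GolayPt) := {b | ∃ m ∈ L0, b = unmask m}

/-- `B` can be carried into the standard system fixing the first `t` points. -/
def Concl (t v : ℕ) (L0 : List ℕ) (B : Set (Finset GolayPt)) : Prop :=
  ∃ σ : Equiv.Perm GolayPt, (∀ i < t, σ (pt i) = pt i) ∧ σ • PU v = PU v ∧ ∀ b ∈ B, σ • b ∈ B0 L0

/-- every system containing the blocks of the bit set `S` can be carried into the standard one. -/
def Goal (t v : ℕ) (L0 : List ℕ) (S : ℕ) : Prop :=
  ∀ B : Set (Finset GolayPt), RSt t v B → (∀ m, S.testBit m = true → unmask m ∈ B) →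
    Concl t v L0 B

/-! ### the search -/

/-- the bit set of the masks obtained from `c` by removing one point. -/
def cover (v c : ℕ) : ℕ :=
  Nat.rec 0 (fun i ih => Bool.rec ih
    (Nat.lor ih (Nat.shiftLeft 1 (Nat.xor c (Nat.shiftLeft 1 i)))) (tbit c i)) v

theorem cover_succ (v c : ℕ) : cover (v + 1) c =
    if c.testBit v = true then cover v c ||| 1 <<< (c ^^^ 1 <<< v) else cover v c := by
  have h : cover (v + 1) c = Bool.rec (cover v c)
    (Nat.lor (cover v c) (Nat.shiftLeft 1 (Nat.xor c (Nat.shiftLeft 1 v)))) (tbit c v) := rfl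
  rw [h, tbit_eq]
  cases c.testBit v <;> rfl

theorem testBit_cover (v c x : ℕ) : (cover v c).testBit x = true ↔
    ∃ i < v, c.testBit i = true ∧ x = c ^^^ 1 <<< i := by
  induction v with
  | zero => simp [cover]
  | succ v ih =>
    rw [cover_succ]
    split_ifs with h
    · rw [Nat.testBit_or, Bool.or_eq_true, ih, testBit_one_shl]
      constructor
      · rintro (⟨i, hi, h1, h2⟩ | h2)
        · exact ⟨i, by omega, h1, h2⟩
        · exact ⟨v, by omega, h, h2⟩
      · rintro ⟨i, hi, h1, h2⟩
        rcases Nat.lt_succ_iff_lt_or_eq.1 hi with hi | rfl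
        · exact Or.inl ⟨i, hi, h1, h2⟩
        · exact Or.inr h2
    · rw [ih]
      constructor
      · rintro ⟨i, hi, h1, h2⟩
        exact ⟨i, by omega, h1, h2⟩
      · rintro ⟨i, hi, h1, h2⟩
        rcases Nat.lt_succ_iff_lt_or_eq.1 hi with hi | rfl
        · exact ⟨i, hi, h1, h2⟩
        · exact absurd h1 h

/-- `covered` records the masks that become a chosen block by adding one point. -/
def Inv (v S covered : ℕ) : Prop :=
  ∀ x, covered.testBit x = true ↔ ∃ i < v, x.testBit i = false ∧ S.testBit (x ||| 1 <<< i) = true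

theorem Inv.step {v S covered : ℕ} (h : Inv v S covered) (c : ℕ) :
    Inv v (S ||| 1 <<< c) (covered ||| cover v c) := by
  intro x
  rw [Nat.testBit_or, Bool.or_eq_true, h x, testBit_cover]
  constructor
  · rintro (⟨i, hi, h1, h2⟩ | ⟨i, hi, h1, h2⟩)
    · exact ⟨i, hi, h1, by rw [Nat.testBit_or, h2]; rfl⟩
    · obtain ⟨e1, e2⟩ := xor_bit h1
      refine ⟨i, hi, by rw [h2]; exact e1, ?_⟩
      rw [Nat.testBit_or, Bool.or_eq_true, testBit_one_shl, h2, e2]
      exact Or.inr rfl
  · rintro ⟨i, hi, h1, h2⟩
    rw [Nat.testBit_or, Bool.or_eq_true, testBit_one_shl] at h2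
    rcases h2 with h2 | h2
    · exact Or.inl ⟨i, hi, h1, h2⟩
    · obtain ⟨e1, e2⟩ := or_bit h1
      exact Or.inr ⟨i, hi, by rw [← h2]; exact e1, by rw [← h2]; exact e2.symm⟩

/-- the points of the chosen blocks and the first `t` points are `used`. -/
def UInv (t S used : ℕ) : Prop :=
  (∀ m, S.testBit m = true → ∀ j, m.testBit j = true → used.testBit j = true) ∧
    ∀ j < t, used.testBit j = true

theorem UInv.step {t S used : ℕ} (h : UInv t S used) (c : ℕ) :
    UInv t (S ||| 1 <<< c) (used ||| c) := by
  refine ⟨fun m hm j hj => ?_, fun j hj => ?_⟩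
  · rw [Nat.testBit_or, Bool.or_eq_true, testBit_one_shl] at hm
    rw [Nat.testBit_or, Bool.or_eq_true]
    rcases hm with hm | rfl
    · exact Or.inl (h.1 m hm j hj)
    · exact Or.inr hj
  · rw [Nat.testBit_or, h.2 j hj]; rfl

/-- the test made for the candidate point `i` at a node. -/
def cond (v q S covered used : ℕ) (rec : ℕ → ℕ → ℕ → Bool) (i : ℕ) : Bool :=
  orb (tbit q i)
    (orb (band (notb (tbit (Nat.lor used q) i)) (exBelow (fun j => notb (tbit (Nat.lor used q) j)) i))
      (orb (notb (Nat.beq (Nat.land (cover v (Nat.lor q (Nat.shiftLeft 1 i))) covered) 0))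
        (rec (Nat.lor S (Nat.shiftLeft 1 (Nat.lor q (Nat.shiftLeft 1 i))))
          (Nat.lor covered (cover v (Nat.lor q (Nat.shiftLeft 1 i))))
          (Nat.lor used (Nat.lor q (Nat.shiftLeft 1 i))))))

/-- the search: `Q` is the list of the `t`-sets still to be looked at. -/
def search (v : ℕ) (leaf : ℕ → Bool) (Q : List ℕ) : ℕ → ℕ → ℕ → Bool :=
  List.rec (fun S _ _ => leaf S)
    (fun q _ ih S covered used => Bool.rec
      (allBelow (cond v q S covered used ih) v) (ih S covered used) (tbit covered q)) Q

theorem search_nil (v : ℕ) (leaf : ℕ → Bool) (S covered used : ℕ) :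
    search v leaf [] S covered used = leaf S := rfl

theorem search_cons (v : ℕ) (leaf : ℕ → Bool) (q : ℕ) (Q : List ℕ) (S covered used : ℕ) :
    search v leaf (q :: Q) S covered used =
      if covered.testBit q = true then search v leaf Q S covered used
      else allBelow (cond v q S covered used (search v leaf Q)) v := by
  have h : search v leaf (q :: Q) S covered used = Bool.rec
      (allBelow (cond v q S covered used (search v leaf Q)) v) (search v leaf Q S covered used)
      (tbit covered q) := rfl
  rw [h, tbit_eq]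
  cases covered.testBit q <;> rfl

theorem swap_smul_of_notMem {a b : GolayPt} {s : Finset GolayPt} (ha : a ∉ s) (hb : b ∉ s) :
    Equiv.swap a b • s = s := by
  ext p
  rw [← Finset.inv_smul_mem_iff, Equiv.swap_inv]
  show Equiv.swap a b p ∈ s ↔ p ∈ s
  by_cases h1 : p = a
  · subst h1; rw [Equiv.swap_apply_left]; exact ⟨fun h => absurd h hb, fun h => absurd h ha⟩
  · by_cases h2 : p = b
    · subst h2; rw [Equiv.swap_apply_right]; exact ⟨fun h => absurd h ha, fun h => absurd h hb⟩
    · rw [Equiv.swap_apply_of_ne_of_ne h1 h2]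

theorem swap_smul_insert {a b : GolayPt} {s : Finset GolayPt} (ha : a ∉ s) (hb : b ∉ s) :
    Equiv.swap a b • insert a s = insert b s := by
  rw [Finset.smul_finset_insert, swap_smul_of_notMem ha hb]
  congr 1
  exact Equiv.swap_apply_left a b

theorem swap_smul_PU {v i j : ℕ} (hi : i < v) (hj : j < v) (hv : v ≤ 24) :
    Equiv.swap (pt i) (pt j) • PU v = PU v := by
  ext p
  rw [← Finset.inv_smul_mem_iff, Equiv.swap_inv]
  show Equiv.swap (pt i) (pt j) p ∈ PU v ↔ p ∈ PU v
  by_cases h1 : p = pt i
  · subst h1; rw [Equiv.swap_apply_left, mem_PU, mem_PU, idx_pt (by omega), idx_pt (by omega)]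
    exact ⟨fun _ => hi, fun _ => hj⟩
  · by_cases h2 : p = pt j
    · subst h2; rw [Equiv.swap_apply_right, mem_PU, mem_PU, idx_pt (by omega), idx_pt (by omega)]
      exact ⟨fun _ => hj, fun _ => hi⟩
    · rw [Equiv.swap_apply_of_ne_of_ne h1 h2]

/-- the statement for a candidate point. -/
def PP (t v : ℕ) (L0 : List ℕ) (S q i : ℕ) : Prop :=
  ∀ B : Set (Finset GolayPt), RSt t v B → (∀ m, S.testBit m = true → unmask m ∈ B) →
    unmask (q ||| 1 <<< i) ∈ B → Concl t v L0 B

theorem PP.sym {t v : ℕ} (hv : v ≤ 24) (htv : t ≤ v) {L0 : List ℕ} {S q used i i0 : ℕ} (hU : UInv t S used)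
    (hi : i < v) (hi0 : i0 < v) (hf : (used ||| q).testBit i = false)
    (hf0 : (used ||| q).testBit i0 = false) (h0 : PP t v L0 S q i0) : PP t v L0 S q i := by
  rw [Nat.testBit_or, Bool.or_eq_false_iff] at hf hf0
  intro B hBst hS hcB
  have hτ : Equiv.swap (pt i) (pt i0) • PU v = PU v := swap_smul_PU hi hi0 hv
  have hnm : ∀ (m j : ℕ), j < v → m.testBit j = false → pt j ∉ unmask m := by
    intro m j hj h
    rw [mem_unmask, idx_pt (by omega), h]; simp
  obtain ⟨σ, h1, h2, h3⟩ := h0 (Equiv.swap (pt i) (pt i0) • B) (hBst.smul hτ) (by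
      intro m hm
      refine ⟨unmask m, hS m hm, ?_⟩
      show Equiv.swap (pt i) (pt i0) • unmask m = unmask m
      apply swap_smul_of_notMem
      · apply hnm m i hi
        by_contra e
        rw [Bool.not_eq_false] at e
        rw [hU.1 m hm i e] at hf
        exact Bool.noConfusion hf.1
      · apply hnm m i0 hi0
        by_contra e
        rw [Bool.not_eq_false] at e
        rw [hU.1 m hm i0 e] at hf0
        exact Bool.noConfusion hf0.1) (by
      refine ⟨unmask (q ||| 1 <<< i), hcB, ?_⟩
      show Equiv.swap (pt i) (pt i0) • unmask (q ||| 1 <<< i) = unmask (q ||| 1 <<< i0)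
      rw [unmask_or_bit q (by omega), unmask_or_bit q (by omega),
        swap_smul_insert (hnm q i hi hf.2) (hnm q i0 hi0 hf0.2)])
  refine ⟨σ * Equiv.swap (pt i) (pt i0), ?_, ?_, ?_⟩
  · intro k hk
    have hk' := hU.2 k hk
    have e1 : pt k ≠ pt i := by
      intro e
      have : k = i := by
        have := congrArg idx e
        rwa [idx_pt (by omega), idx_pt (by omega)] at this
      rw [this, hf.1] at hk'
      exact Bool.noConfusion hk'
    have e2 : pt k ≠ pt i0 := by
      intro e
      have : k = i0 := by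
        have := congrArg idx e
        rwa [idx_pt (by omega), idx_pt (by omega)] at this
      rw [this, hf0.1] at hk'
      exact Bool.noConfusion hk'
    rw [Equiv.Perm.mul_apply, Equiv.swap_apply_of_ne_of_ne e1 e2, h1 k hk]
  · rw [mul_smul, hτ, h2]
  · intro b hb
    rw [mul_smul]
    exact h3 _ ⟨b, hb, rfl⟩

theorem search_sound {t v : ℕ} (hv : v ≤ 24) (htv : t ≤ v) {L0 : List ℕ} {leaf : ℕ → Bool}
    (hleaf : ∀ S, leaf S = true → Goal t v L0 S) (Q : List ℕ)
    (hQ : ∀ q ∈ Q, q < 2 ^ v ∧ pc q = t) :
    ∀ S covered used, Inv v S covered → UInv t S used →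
      (∀ m, S.testBit m = true → m < 2 ^ 24) →
      search v leaf Q S covered used = true → Goal t v L0 S := by
  induction Q with
  | nil =>
    intro S covered used _ _ _ hs
    exact hleaf S hs
  | cons q Q ih =>
    intro S covered used hI hU hB hs
    have ih' := ih (fun q' hq' => hQ q' (List.mem_cons_of_mem _ hq'))
    rw [search_cons] at hs
    split_ifs at hs with hc
    · exact ih' S covered used hI hU hB hs
    · rw [allBelow_iff] at hs
      obtain ⟨hq1, hq2⟩ := hQ q List.mem_cons_self
      have hq24 : q < 2 ^ 24 := lt_of_lt_of_le hq1 (Nat.pow_le_pow_right (by norm_num) hv)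
      have key1 : ∀ i < v, q.testBit i = false →
          (¬ ((used ||| q).testBit i = false ∧ ∃ j < i, (used ||| q).testBit j = false)) →
          PP t v L0 S q i := by
        intro i hi hqi hns B hBst hS hcB
        have hcond := hs i hi
        unfold cond at hcond
        rw [orb_true, orb_true, orb_true, tbit_eq, band_true, notb_true, tbit_eq, exBelow_iff,
          notb_true] at hcond
        rcases hcond with h | h | h | h
        · rw [hqi] at h; exact Bool.noConfusion h
        · exfalso
          apply hns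
          refine ⟨h.1, ?_⟩
          obtain ⟨j, hj, e⟩ := h.2
          rw [notb_true, tbit_eq] at e
          exact ⟨j, hj, e⟩
        · exfalso
          have hne : cover v (q ||| 1 <<< i) &&& covered ≠ 0 := by
            intro e
            have : Nat.beq (cover v (q ||| 1 <<< i) &&& covered) 0 = true := by rw [e]; rfl
            rw [show Nat.land (cover v (Nat.lor q (Nat.shiftLeft 1 i))) covered
              = cover v (q ||| 1 <<< i) &&& covered from rfl, this] at h
            exact Bool.noConfusion h
          obtain ⟨x, hx1, hx2⟩ := exists_testBit_of_and_ne_zero hne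
          obtain ⟨j, hj, hj1, hj2⟩ := (testBit_cover _ _ _).1 hx1
          obtain ⟨k, hk, hk1, hk2⟩ := (hI x).1 hx2
          obtain ⟨e1, e2⟩ := xor_bit hj1
          rw [← hj2] at e1 e2
          have hcx : unmask (q ||| 1 <<< i) = insert (pt j) (unmask x) := by
            rw [← e2, unmask_or_bit x (by omega)]
          have hmx : unmask (x ||| 1 <<< k) = insert (pt k) (unmask x) :=
            unmask_or_bit x (by omega)
          have hjx : pt j ∉ unmask x := by
            rw [mem_unmask, idx_pt (by omega), e1]; simp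
          have hcard : (unmask x).card = t := by
            have := hBst.card _ hcB
            rw [hcx, Finset.card_insert_of_notMem hjx] at this
            omega
          have heq := hBst.uniq _ hcB _ (hS _ hk2) (unmask x) hcard
            (by rw [hcx]; exact Finset.subset_insert _ _)
            (by rw [hmx]; exact Finset.subset_insert _ _)
          have hcm : q ||| 1 <<< i = x ||| 1 <<< k :=
            unmask_injOn (or_bit_lt hq24 (by omega)) (hB _ hk2) heq
          apply hc
          rw [hI q]
          exact ⟨i, hi, hqi, by rw [hcm]; exact hk2⟩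
        · have hg := ih' _ _ _ (hI.step (q ||| 1 <<< i)) (hU.step (q ||| 1 <<< i)) (by
            intro m hm
            rw [Nat.testBit_or, Bool.or_eq_true, testBit_one_shl] at hm
            rcases hm with hm | rfl
            · exact hB m hm
            · exact or_bit_lt hq24 (by omega)) h
          apply hg B hBst
          intro m hm
          rw [Nat.testBit_or, Bool.or_eq_true, testBit_one_shl] at hm
          rcases hm with hm | rfl
          · exact hS m hm
          · exact hcB
      have key2 : ∀ i < v, q.testBit i = false → PP t v L0 S q i := by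
        intro i hi hqi
        by_cases hsk : (used ||| q).testBit i = false ∧ ∃ j < i, (used ||| q).testBit j = false
        · have hex : ∃ j, (used ||| q).testBit j = false := ⟨i, hsk.1⟩
          have h1 := Nat.find_spec hex
          have h2 : Nat.find hex ≤ i := Nat.find_min' hex hsk.1
          have h3 : q.testBit (Nat.find hex) = false := by
            have := h1
            rw [Nat.testBit_or, Bool.or_eq_false_iff] at this
            exact this.2
          refine PP.sym hv htv hU hi (by omega) hsk.1 h1 (key1 _ (by omega) h3 ?_)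
          rintro ⟨_, j, hj, e⟩
          exact Nat.find_min hex hj e
        · exact key1 i hi hqi hsk
      intro B hBst hS
      obtain ⟨b, hb, hqb⟩ := hBst.ex (unmask q) (unmask_subset_PU hq1) (by rw [card_unmask, hq2])
      have hcard : (b \ unmask q).card = 1 := by
        rw [Finset.card_sdiff_of_subset hqb, hBst.card b hb, card_unmask, hq2]; omega
      obtain ⟨p, hp⟩ := Finset.card_eq_one.1 hcard
      have hpb : p ∈ b \ unmask q := by rw [hp]; exact Finset.mem_singleton_self p
      rw [Finset.mem_sdiff] at hpb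
      have hbe : b = insert p (unmask q) := by
        rw [← Finset.sdiff_union_of_subset hqb, hp]; rfl
      have hpv : idx p < v := mem_PU.1 (hBst.sub b hb hpb.1)
      have hpq : q.testBit (idx p) = false := by
        have := hpb.2
        rw [mem_unmask, Bool.not_eq_true] at this
        exact this
      refine key2 (idx p) hpv hpq B hBst hS ?_
      rw [unmask_or_bit q (by omega), pt_idx, ← hbe]
      exact hb

/-! ### the leaves -/

/-- some certificate permutation carries the standard system into the chosen blocks. -/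
def leafCheck (L0 certs : List ℕ) (S : ℕ) : Bool :=
  exList (fun ρ => allList (fun m0 => tbit S (permMask ρ m0)) L0) certs

/-- validity of a certificate. -/
def certOk (t v ρ : ℕ) : Bool :=
  band (validCode ρ) (band (Nat.beq (permMask ρ (2 ^ v - 1)) (2 ^ v - 1))
    (allBelow (fun i => Nat.beq (ent ρ i) i) t))

/-- every `t`-set lies in a standard block. -/
def covOk (t v : ℕ) (L0 : List ℕ) : Bool :=
  allBelow (fun x => orb (notb (Nat.beq (pc x) t))
    (exList (fun m0 => Nat.beq (Nat.land x m0) x) L0)) (2 ^ v)

theorem mask_lt_of_subset_PU {v : ℕ} {s : Finset GolayPt} (hs : s ⊆ PU v) : mask s < 2 ^ v := by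
  apply Nat.lt_pow_two_of_testBit
  intro i hi
  by_cases h24 : i < 24
  · rw [testBit_mask_of_lt s h24, decide_eq_false_iff_not]
    intro h
    have := mem_PU.1 (hs h)
    rw [idx_pt h24] at this
    omega
  · exact testBit_mask_of_ge s (by omega)

theorem cov_of_covOk {t v : ℕ} {L0 : List ℕ} (hL : ∀ m ∈ L0, m < 2 ^ 24)
    (h : covOk t v L0 = true) (s : Finset GolayPt) (hs : s ⊆ PU v) (hc : s.card = t) :
    ∃ m ∈ L0, s ⊆ unmask m := by
  unfold covOk at h
  rw [allBelow_iff] at h
  have := h (mask s) (mask_lt_of_subset_PU hs)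
  rw [orb_true, notb_true, exList_iff] at this
  rcases this with h1 | ⟨m, hm, h1⟩
  · rw [← card_eq_pc, hc] at h1
    have : Nat.beq t t = true := by rw [Nat.beq_eq]
    rw [this] at h1
    exact Bool.noConfusion h1
  · rw [Nat.beq_eq] at h1
    refine ⟨m, hm, ?_⟩
    rw [subset_iff_mask, mask_unmask (hL m hm)]
    exact h1

theorem leaf_sound {t v : ℕ} (hv : v ≤ 24) {L0 certs : List ℕ} (hL : ∀ m ∈ L0, m < 2 ^ 24)
    (hcov : covOk t v L0 = true) (hcerts : ∀ ρ ∈ certs, certOk t v ρ = true) (S : ℕ)
    (h : leafCheck L0 certs S = true) : Goal t v L0 S := by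
  unfold leafCheck at h
  rw [exList_iff] at h
  obtain ⟨ρ, hρ, h⟩ := h
  rw [allList_iff] at h
  have hc := hcerts ρ hρ
  unfold certOk at hc
  rw [band_true, band_true, Nat.beq_eq, allBelow_iff] at hc
  obtain ⟨hval, hPU, hfix⟩ := hc
  have hlt : 2 ^ v - 1 < 2 ^ 24 := by
    have : 2 ^ v ≤ 2 ^ 24 := Nat.pow_le_pow_right (by norm_num) hv
    have : 0 < 2 ^ v := Nat.two_pow_pos v
    omega
  have hρPU : permOf ρ • PU v = PU v := by
    unfold PU
    rw [smul_unmask_permOf hval hlt, hPU]
  have hρPU' : (permOf ρ)⁻¹ • PU v = PU v := by rw [inv_smul_eq_iff, hρPU]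
  intro B hBst hS
  refine ⟨(permOf ρ)⁻¹, ?_, hρPU', ?_⟩
  · intro i hi
    rw [Equiv.Perm.inv_eq_iff_eq, permOf_apply hval]
    by_cases h24 : i < 24
    · have := hfix i hi
      rw [Nat.beq_eq] at this
      rw [idx_pt h24, this]
    · have e : pt i = pt 23 := by
        unfold pt
        rw [if_neg (by omega), if_neg (by omega)]
      have := hfix 23 (by omega)
      rw [Nat.beq_eq] at this
      rw [e, idx_pt (by norm_num), this]
  · intro b hb
    obtain ⟨s, hsb, hs⟩ := Finset.exists_subset_card_eq (s := b) (n := t)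
      (by rw [hBst.card b hb]; omega)
    obtain ⟨m0, hm0, hsm⟩ := cov_of_covOk hL hcov ((permOf ρ)⁻¹ • s)
      (by
        rw [← hρPU']
        exact Finset.smul_finset_subset_smul_finset (hsb.trans (hBst.sub b hb)))
      (by rw [Finset.card_smul_finset]; exact hs)
    have h1 : s ⊆ unmask (permMask ρ m0) := by
      rw [← smul_unmask_permOf hval (hL m0 hm0)]
      have := Finset.smul_finset_subset_smul_finset (a := permOf ρ) hsm
      rwa [smul_inv_smul] at this
    have h2 : unmask (permMask ρ m0) ∈ B := by
      apply hS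
      rw [← tbit_eq]
      exact h m0 hm0
    have h3 := hBst.uniq b hb _ h2 s hs hsb h1
    refine ⟨m0, hm0, ?_⟩
    rw [h3, ← smul_unmask_permOf hval (hL m0 hm0), inv_smul_smul]

/-- all checks together. -/
def fullCheck (t v : ℕ) (L0 certs Q : List ℕ) : Bool :=
  band (allList (fun m => Nat.blt m (2 ^ 24)) L0)
    (band (covOk t v L0)
      (band (allList (certOk t v) certs)
        (band (allList (fun q => band (Nat.blt q (2 ^ v)) (Nat.beq (pc q) t)) Q)
          (search v (leafCheck L0 certs) Q 0 0 (2 ^ t - 1)))))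

theorem goal_of_fullCheck {t v : ℕ} (hv : v ≤ 24) (htv : t ≤ v) {L0 certs Q : List ℕ}
    (h : fullCheck t v L0 certs Q = true) : Goal t v L0 0 := by
  unfold fullCheck at h
  rw [band_true, band_true, band_true, band_true, allList_iff, allList_iff, allList_iff] at h
  obtain ⟨h1, h2, h3, h4, h5⟩ := h
  have hL : ∀ m ∈ L0, m < 2 ^ 24 := by
    intro m hm
    have := h1 m hm
    rwa [Nat.blt_eq] at this
  refine search_sound hv htv (leaf_sound hv hL h2 h3) Q ?_ 0 0 (2 ^ t - 1) ?_ ?_ ?_ h5
  · intro q hq
    have := h4 q hq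
    rw [band_true, Nat.blt_eq, Nat.beq_eq] at this
    exact this
  · intro x
    simp
  · refine ⟨fun m hm => ?_, fun j hj => ?_⟩
    · simp at hm
    · rw [Nat.testBit_two_pow_sub_one]; simpa using hj
  · intro m hm
    simp at hm

end Cfsg.Agent.Lib.Helper30.SS
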